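import Cfsg.Agent.H94.JyGood

/-!
# S2953 (kill sub-project JX): G-level facts on `P = K ⊔ T` for a configuration (helper94)

From `Base S M T K L`, with `P = K ⊔ T`, `Q = O₂(P)`: `Q ≤ T`, `Q ≠ 1`, `P ≤ N(Q)`, `|P : T| = 3`,
`|T : Q| = 2`, `P ∩ X ≤ T` for every `X ≥ T` not containing `K`, and `Q` is the core of `T` in `P`.
-/

set_option autoImplicit false
set_option linter.style.haveILetI false
open Cfsg

universe u

namespace Cfsg.Agent.H94.Jx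

open Cfsg.Agent.H64.Jz

/-- the index of `T` in `P = K ⊔ T` is 3, and `O₂(P)` is the normal core of `T` in `P` -/
theorem p_struct {G : Type u} [Group G] [Finite G] (S : Sylow 2 G) (M T K L : Subgroup G)
    (hB : Base S M T K L) :
    (T.subgroupOf (K ⊔ T)).index = 3 ∧
    Cfsg.pCore 2 ↥(K ⊔ T) = (T.subgroupOf (K ⊔ T)).normalCore ∧
    pCoreOf 2 (K ⊔ T) ≤ T := by
  obtain ⟨-, hsylP, -, -, -, -, hsylL, -⟩ := Cfsg.Agent.H94.Jy.good_facts S M T K L hB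
  obtain ⟨hZN, hO, hM, hMJ, hT, hTS, hK, hLmax, hKJL⟩ := hB
  obtain ⟨hchar, hsolv, hZ⟩ := hZN
  obtain ⟨L₀, hL₀max, hL₀, huniq, hsub, hsyl⟩ :=
    Cfsg.Agent.S2950.result hchar hsolv hZ hO S M hM hMJ T hT K hK
  have hLL₀ : L = L₀ := huniq L hLmax hKJL
  rw [← hLL₀] at huniq hsub hsyl
  obtain ⟨hTL, hT2, hToddL⟩ := hsyl
  have hJT : thompsonSubgroupOf 2 T ≤ T := Subgroup.map_subtype_le _
  have hKL : K ≤ L := le_sup_left.trans hKJL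
  have hTP : T ≤ K ⊔ T := le_sup_right
  have hKP : K ≤ K ⊔ T := le_sup_left
  have hOLT : pCoreOf 2 L ≤ T := Cfsg.Agent.Helper55.J48.pCoreOf_le_of_sylowIn hsylL
  have hOPT : pCoreOf 2 (K ⊔ T) ≤ T := Cfsg.Agent.Helper55.J48.pCoreOf_le_of_sylowIn hsylP
  obtain ⟨hgen, hcomm, hrel3, -, -, -⟩ := hK.1.1
  have hOK : pCoreOf 2 K ≤ K := Subgroup.map_subtype_le _
  have hOKT : pCoreOf 2 K ≤ T := (Cfsg.Agent.H54.Uq.o2sn K L hKL hsub).trans hOLT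
  haveI hKn : (K.subgroupOf (K ⊔ T)).Normal :=
    Cfsg.Agent.S2952.result hchar hsolv hZ hO S M hM hMJ T hT K hK
  have hsup : K.subgroupOf (K ⊔ T) ⊔ T.subgroupOf (K ⊔ T) = ⊤ := by
    rw [← Subgroup.subgroupOf_sup hKP hTP, Subgroup.subgroupOf_self]
  have hT0 : IsPGroup 2 ↥(T.subgroupOf (K ⊔ T)) := hT2.comap_subtype
  have h3 : (T.subgroupOf (K ⊔ T)).index = 3 :=
    Cfsg.Agent.H59.PushKill.index_eq_three (K.subgroupOf (K ⊔ T)) (T.subgroupOf (K ⊔ T))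
      ((pCoreOf 2 K).subgroupOf (K ⊔ T)) hsup hT0
      (fun x hx => hOK hx) (fun x hx => hOKT hx)
      (by rw [Subgroup.relIndex_subgroupOf hKP]; exact hrel3)
  have hcore : Cfsg.pCore 2 ↥(K ⊔ T) = (T.subgroupOf (K ⊔ T)).normalCore := by
    apply le_antisymm
    · haveI hn : (Cfsg.pCore 2 ↥(K ⊔ T)).Normal := Subgroup.sSup_normal _ (fun _ hH => hH.1)
      rw [Subgroup.normal_le_normalCore]
      intro x hx
      rw [Subgroup.mem_subgroupOf]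
      exact hOPT (Subgroup.mem_map_of_mem _ hx)
    · exact le_sSup ⟨Subgroup.normalCore_normal _, hT0.to_le (Subgroup.normalCore_le _)⟩
  exact ⟨h3, hcore, hOPT⟩

/-- **P-FACTS** for a configuration. -/
theorem pfacts {G : Type u} [Group G] [Finite G] (S : Sylow 2 G) (M T K L : Subgroup G)
    (hB : Base S M T K L) :
    pCoreOf 2 (K ⊔ T) ≤ T ∧ pCoreOf 2 (K ⊔ T) ≠ ⊥ ∧
    K ⊔ T ≤ Subgroup.normalizer (pCoreOf 2 (K ⊔ T) : Set G) ∧
    T.relIndex (K ⊔ T) = 3 ∧ (pCoreOf 2 (K ⊔ T)).relIndex T = 2 ∧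
    (∀ X : Subgroup G, T ≤ X → ¬ K ≤ X → (K ⊔ T) ⊓ X ≤ T) ∧
    (∀ x ∈ K ⊔ T, (∀ y ∈ K ⊔ T, y⁻¹ * x * y ∈ T) → x ∈ pCoreOf 2 (K ⊔ T)) := by
  obtain ⟨h3, hcore, hOPT⟩ := p_struct S M T K L hB
  obtain ⟨-, -, hrel6, -, -, -, -, -⟩ := Cfsg.Agent.H94.Jy.good_facts S M T K L hB
  have hTP : T ≤ K ⊔ T := le_sup_right
  have hKP : K ≤ K ⊔ T := le_sup_left
  have h3' : T.relIndex (K ⊔ T) = 3 := h3
  refine ⟨hOPT, hB.2.2.2.2.2.2.1.2.2, Cfsg.Agent.H31.X.H54.le_normalizer_pCoreOf (K ⊔ T), h3',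
    ?_, ?_, ?_⟩
  · have h := Subgroup.relIndex_mul_relIndex (pCoreOf 2 (K ⊔ T)) T (K ⊔ T) hOPT hTP
    rw [h3', hrel6] at h
    omega
  · intro X hTX hKX
    have h := Subgroup.relIndex_mul_relIndex T ((K ⊔ T) ⊓ X) (K ⊔ T) (le_inf hTP hTX) inf_le_left
    rw [h3'] at h
    have hd : ((K ⊔ T) ⊓ X).relIndex (K ⊔ T) ∣ 3 := Dvd.intro_left _ h
    rcases (Nat.dvd_prime Nat.prime_three).mp hd with h1 | h1
    · exact absurd (hKP.trans ((Subgroup.relIndex_eq_one.mp h1).trans inf_le_right)) hKX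
    · rw [h1] at h
      have h2 : T.relIndex ((K ⊔ T) ⊓ X) = 1 := by omega
      exact Subgroup.relIndex_eq_one.mp h2
  · intro x hx hall
    have hmem : (⟨x, hx⟩ : ↥(K ⊔ T)) ∈ (T.subgroupOf (K ⊔ T)).normalCore := by
      intro b
      rw [Subgroup.mem_subgroupOf]
      have h := hall (b⁻¹ : ↥(K ⊔ T)) (b⁻¹ : ↥(K ⊔ T)).2
      simpa using h
    rw [← hcore] at hmem
    exact Subgroup.mem_map_of_mem (K ⊔ T).subtype hmem

end Cfsg.Agent.H94.Jx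

#print axioms Cfsg.Agent.H94.Jx.pfacts
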