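import Cfsg.Agent.H59.JzKillDefs
import Cfsg.Agent.H52.SrAsm
import Cfsg.Agent.H35.SrCW
import Cfsg.Agent.H40.SrDEC
import Cfsg.Agent.H32.SrVNG
import Cfsg.Agent.S2948
import Cfsg.Agent.S2950

/-!
helper94: sub-piece K-CARD of JZ-KILL (S2951 / S2952) for helper59 / helper64:
if `S` does not normalize `K` then `V = Ω₁Z(O₂(L))` has order at least 16.
-/

set_option autoImplicit false
open Cfsg

namespace Cfsg.Agent.H94.JzK

open Cfsg.Agent.H64.Jz Cfsg.Agent.H59.JzK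

universe u

theorem jk_mem_normalizer_of_map_conj_eq {G : Type u} [Group G] {H : Subgroup G} {g : G}
    (hg : H.map (MulAut.conj g).toMonoidHom = H) : g ∈ Subgroup.normalizer (H : Set G) := by
  rw [Subgroup.mem_normalizer_iff]
  intro h
  constructor
  · intro hh
    have h1 : g * h * g⁻¹ ∈ H.map (MulAut.conj g).toMonoidHom := ⟨h, hh, by simp [MulAut.conj_apply]⟩
    rwa [hg] at h1
  · intro hh
    rw [← hg] at hh
    obtain ⟨p, hp, hpe⟩ := hh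
    have h1 : g * p * g⁻¹ = g * h * g⁻¹ := by simpa [MulAut.conj_apply] using hpe
    have h2 : p = h := by
      have e1 : g⁻¹ * (g * p * g⁻¹) * g = p := by group
      have e2 : g⁻¹ * (g * h * g⁻¹) * g = h := by group
      rw [← e1, h1, e2]
    rw [← h2]; exact hp

theorem jk_card_mul_le {X : Type u} [Group X] [Finite X] (P Q V : Subgroup X) (hP : P ≤ V)
    (hQ : Q ≤ V) (h : P ⊓ Q = ⊥) : Nat.card ↥P * Nat.card ↥Q ≤ Nat.card ↥V := by
  rw [← Nat.card_prod]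
  apply Nat.card_le_card_of_injective
    (fun x : ↥P × ↥Q => (⟨x.1.1 * x.2.1, V.mul_mem (hP x.1.2) (hQ x.2.2)⟩ : ↥V))
  rintro ⟨⟨a, ha⟩, ⟨b, hb⟩⟩ ⟨⟨c, hc⟩, ⟨d, hd⟩⟩ hEq
  simp only [Subtype.mk.injEq] at hEq
  have h1 : c⁻¹ * a = d * b⁻¹ := by
    have : c⁻¹ * (a * b) * b⁻¹ = c⁻¹ * (c * d) * b⁻¹ := by rw [hEq]
    have e1 : c⁻¹ * (a * b) * b⁻¹ = c⁻¹ * a := by group
    have e2 : c⁻¹ * (c * d) * b⁻¹ = d * b⁻¹ := by group
    rw [← e1, this, e2]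
  have h2 : c⁻¹ * a ∈ P ⊓ Q :=
    ⟨P.mul_mem (P.inv_mem hc) ha, by rw [h1]; exact Q.mul_mem hd (Q.inv_mem hb)⟩
  rw [h, Subgroup.mem_bot] at h2
  have hac : a = c := by
    have : a = c * (c⁻¹ * a) := by group
    rw [this, h2, mul_one]
  subst hac
  have hbd : b = d := mul_left_cancel hEq
  subst hbd
  rfl

/-- K-CARD. -/
theorem kCard : Cfsg.Agent.H59.JzK.StKCard.{u} := by
  intro G _ _ S M K L T' K' L' hR hn
  obtain ⟨hB, hX, -, -⟩ := hR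
  obtain ⟨hZN, hO, hM, hMJ, hT, -, hK, hLmax, hKL⟩ := hB
  obtain ⟨hc2, hsolv, hZ⟩ := hZN
  have hS2 : IsPGroup 2 ↥(S : Subgroup G) := S.isPGroup'
  have hSne : (S : Subgroup G) ≠ ⊥ := hT.1.2.1
  have hJle : thompsonSubgroupOf 2 (S : Subgroup G) ≤ (S : Subgroup G) := Subgroup.map_subtype_le _
  obtain ⟨L₀, hL₀max, hKL₀, huniq, -, hSyl₀⟩ :=
    Cfsg.Agent.S2950.result hc2 hsolv hZ hO S M hM hMJ (S : Subgroup G) hT K hK
  have hLL₀ : L = L₀ := huniq L hLmax hKL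
  have hSyl : IsSylowTwoIn (S : Subgroup G) L := by rw [hLL₀]; exact hSyl₀
  have hL2 : IsTwoLocal L := hLmax.1
  have hLM : ¬ L ≤ M := fun h => hK.2.1 ((le_sup_left.trans hKL).trans h)
  have h48 := Cfsg.Agent.S2948.result hc2 hsolv hZ hO S M hM hMJ (S : Subgroup G) hT L hL2 hLM
    (S : Subgroup G) hSyl hJle
  have hLS : L ∈ jOvergroups (S : Subgroup G) := h48.2.2.1
  -- an element of `S` not normalizing `K`
  obtain ⟨s, hsS, hsK⟩ : ∃ s ∈ (S : Subgroup G), s ∉ Subgroup.normalizer (K : Set G) := by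
    by_contra hcon
    push Not at hcon
    exact hn hcon
  have hKc : IsJComponent (S : Subgroup G) K := hK.1.1
  have hKL' : K ≤ L := le_sup_left.trans hKL
  obtain ⟨hK2c, -⟩ := Cfsg.Agent.H59.So.conj (S : Subgroup G) K s hsS hKc
  have hsL : s ∈ L := hSyl.1 hsS
  have hK2L : K.map (MulAut.conj s).toMonoidHom ≤ L := by
    rintro _ ⟨k, hk, rfl⟩
    show s * k * s⁻¹ ∈ L
    exact L.mul_mem (L.mul_mem hsL (hKL' hk)) (L.inv_mem hsL)
  have hne : K ≠ K.map (MulAut.conj s).toMonoidHom := by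
    intro h
    exact hsK (jk_mem_normalizer_of_map_conj_eq h.symm)
  obtain ⟨-, -, hVQ, hQL, -⟩ := Cfsg.Agent.H32.Sr.vng L
  have hVL : omegaCenterOf (pCoreOf 2 L) ≤ L := hVQ.trans hQL
  obtain ⟨hW1V, -, -, -⟩ := Cfsg.Agent.H52.Sr.comp1 Cfsg.Agent.H40.Sr.dec hc2 hsolv hZ
    (S : Subgroup G) hS2 hSne L hLS hVL K hKc hKL'
  obtain ⟨hW2V, -, -, hfpf2⟩ := Cfsg.Agent.H52.Sr.comp1 Cfsg.Agent.H40.Sr.dec hc2 hsolv hZ
    (S : Subgroup G) hS2 hSne L hLS hVL (K.map (MulAut.conj s).toMonoidHom) hK2c hK2L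
  have hcw : wOf K ≤ Subgroup.centralizer ((K.map (MulAut.conj s).toMonoidHom : Subgroup G) : Set G) :=
    Cfsg.Agent.H52.Sr.comp2
      (Cfsg.Agent.H35.Sr.cw
        (Cfsg.Agent.H5.Sn.abs Cfsg.Agent.H91.Sn.finA Cfsg.Agent.H54.Sn.uniq Cfsg.Agent.H25.So.inj))
      hc2 hsolv hZ (S : Subgroup G) hS2 hSne L hLS K hKc hKL'
      (K.map (MulAut.conj s).toMonoidHom) hK2c hK2L hne
  have hdisj : wOf K ⊓ wOf (K.map (MulAut.conj s).toMonoidHom) = ⊥ := by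
    rw [eq_bot_iff, ← hfpf2]
    exact le_inf inf_le_right (inf_le_left.trans hcw)
  have h4a : Nat.card ↥(wOf K) = 4 := hKc.2.2.2.2.1
  have h4b : Nat.card ↥(wOf (K.map (MulAut.conj s).toMonoidHom)) = 4 := hK2c.2.2.2.2.1
  have hmul := jk_card_mul_le (wOf K) (wOf (K.map (MulAut.conj s).toMonoidHom)) (Vof L)
    hW1V hW2V hdisj
  rw [h4a, h4b] at hmul
  exact hmul

example : (∀ {G : Type u} [Group G] [Finite G] (S : Sylow 2 G)
    (M K L T' K' L' : Subgroup G), RCtx S M K L T' K' L' →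
  ¬ (S : Subgroup G) ≤ Subgroup.normalizer (K : Set G) → 16 ≤ Nat.card ↥(Vof L)) := kCard.{u}

end Cfsg.Agent.H94.JzK

#print axioms Cfsg.Agent.H94.JzK.kCard
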