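import Cfsg.Agent.S2952
import Cfsg.Agent.H59.PushKill2
import Cfsg.Agent.H61.JkBasic
import Cfsg.Agent.Helper55.J48
import Cfsg.Agent.H54.UqO2SN

/-!
# S2953 (team project JY / JW), piece JY-GOOD (helper94): the per-`P` clauses for `P = K ⊔ T`

From `Base S M T K L`: `C_G(O₂(P)) ≤ O₂(P)`, `T` Sylow in `P`, `|P : O₂(P)| = 6`,
`P' ⊄ O₂(P)`, `[Ω₁Z(T), P] ≠ 1`, and `L` is the only maximal 2-local over `P`, with `T` Sylow
in `L`.
-/

set_option autoImplicit false
set_option linter.style.haveILetI false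
open Cfsg

universe u

namespace Cfsg.Agent.H94.Jy

open Cfsg.Agent.H64.Jz
open scoped commutatorElement

/-- a 2-subgroup of index 3 which is not normal has a normal core of index 6 -/
theorem core_index_six {H : Type*} [Group H] [Finite H] (T : Subgroup H) (hT : IsPGroup 2 ↥T)
    (h3 : T.index = 3) (hn : ¬ T.Normal) : T.normalCore.index = 6 := by
  have hker : T.normalCore = (MulAction.toPermHom H (H ⧸ T)).ker := Subgroup.normalCore_eq_ker T
  have h1 : T.normalCore.index ∣ 6 := by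
    rw [hker, Subgroup.index_ker]
    have h2 : Nat.card (Equiv.Perm (H ⧸ T)) = 6 := by
      rw [Nat.card_perm, ← Subgroup.index_eq_card, h3]
      rfl
    rw [← h2]
    exact Subgroup.card_subgroup_dvd_card _
  have h2 : T.normalCore.relIndex T * T.index = T.normalCore.index :=
    Subgroup.relIndex_mul_index (Subgroup.normalCore_le T)
  have h4 : ∃ k, T.normalCore.relIndex T = 2 ^ k := by
    have hd : T.normalCore.relIndex T ∣ Nat.card ↥T := Subgroup.relIndex_dvd_card _ _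
    obtain ⟨n, hn⟩ := IsPGroup.iff_card.mp hT
    rw [hn] at hd
    obtain ⟨k, -, hk⟩ := (Nat.dvd_prime_pow Nat.prime_two).mp hd
    exact ⟨k, hk⟩
  obtain ⟨k, hk⟩ := h4
  rw [hk, h3] at h2
  rcases k with _ | _ | k
  · exfalso
    have hle : T ≤ T.normalCore := Subgroup.relIndex_eq_one.mp (by simpa using hk)
    have heq : T.normalCore = T := le_antisymm (Subgroup.normalCore_le T) hle
    exact hn (heq ▸ Subgroup.normalCore_normal T)
  · omega
  · exfalso
    rw [← h2] at h1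
    have h5 : 2 ^ (k + 1 + 1) * 3 ≤ 6 := Nat.le_of_dvd (by norm_num) h1
    have h6 : 2 ^ 2 ≤ 2 ^ (k + 1 + 1) := Nat.pow_le_pow_right (by norm_num) (by omega)
    omega

/-- a subgroup `K = [K, J(T)]` generated by elements of odd order, with `|K : O₂(K)| = 3`, does
not normalize a 2-group containing `J(T)` -/
theorem not_le_normalizer {G : Type u} [Group G] [Finite G] {T K X : Subgroup G}
    (hgen : Subgroup.closure {g : G | g ∈ K ∧ Odd (orderOf g)} = K)
    (hcomm : ⁅K, thompsonSubgroupOf 2 T⁆ = K) (hrel3 : (pCoreOf 2 K).relIndex K = 3)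
    (hX : IsPGroup 2 ↥X) (hJX : thompsonSubgroupOf 2 T ≤ X) :
    ¬ K ≤ Subgroup.normalizer (X : Set G) := by
  intro hKN
  have hKX : K ≤ X := by
    rw [← hcomm, Subgroup.commutator_le]
    intro k hk j hj
    have h1 : k * j * k⁻¹ ∈ X := (Subgroup.mem_normalizer_iff.mp (hKN hk) j).mp (hJX hj)
    rw [commutatorElement_def]
    exact mul_mem h1 (inv_mem (hJX hj))
  have hKbot : K = ⊥ := by
    rw [← hgen, Subgroup.closure_eq_bot_iff]
    rintro g ⟨hgK, hodd⟩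
    obtain ⟨n, hn⟩ := hX ⟨g, hKX hgK⟩
    have hn' : g ^ 2 ^ n = 1 := congrArg Subtype.val hn
    have hdvd : orderOf g ∣ 2 ^ n := orderOf_dvd_of_pow_eq_one hn'
    have hcop : Nat.Coprime (orderOf g) (2 ^ n) :=
      Nat.Coprime.pow_right n (Nat.coprime_two_right.mpr hodd)
    have h1 : orderOf g = 1 := Nat.Coprime.eq_one_of_dvd hcop hdvd
    exact orderOf_eq_one_iff.mp h1
  rw [hKbot, Subgroup.relIndex_bot_right] at hrel3
  omega

/-- **JY-GOOD**: all the per-`P` clauses for `P = K ⊔ T`. -/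
theorem good_facts {G : Type u} [Group G] [Finite G] (S : Sylow 2 G) (M T K L : Subgroup G)
    (hB : Base S M T K L) :
    Subgroup.centralizer (pCoreOf 2 (K ⊔ T) : Set G) ≤ pCoreOf 2 (K ⊔ T) ∧
    IsSylowTwoIn T (K ⊔ T) ∧
    (pCoreOf 2 (K ⊔ T)).relIndex (K ⊔ T) = 6 ∧
    ¬ ⁅K ⊔ T, K ⊔ T⁆ ≤ pCoreOf 2 (K ⊔ T) ∧
    ⁅omegaCenterOf T, K ⊔ T⁆ ≠ ⊥ ∧
    (K ⊔ T ≤ L ∧ IsSylowTwoIn T L ∧
      ∀ L' : Subgroup G, IsMaximalTwoLocal L' → K ⊔ T ≤ L' → L' = L) := by
  obtain ⟨hZN, hO, hM, hMJ, hT, hTS, hK, hLmax, hKJL⟩ := hB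
  obtain ⟨hchar, hsolv, hZ⟩ := hZN
  obtain ⟨L₀, hL₀max, hL₀, huniq, hsub, hsyl⟩ :=
    Cfsg.Agent.S2950.result hchar hsolv hZ hO S M hM hMJ T hT K hK
  have hLL₀ : L = L₀ := huniq L hLmax hKJL
  rw [← hLL₀] at huniq hsub hsyl
  have hsylL : IsSylowTwoIn T L := hsyl
  obtain ⟨hTL, hT2, hToddL⟩ := hsyl
  have hJT : thompsonSubgroupOf 2 T ≤ T := Subgroup.map_subtype_le _
  have hKL : K ≤ L := le_sup_left.trans hKJL
  have hPL : K ⊔ T ≤ L := sup_le hKL hTL
  have hTP : T ≤ K ⊔ T := le_sup_right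
  have hKP : K ≤ K ⊔ T := le_sup_left
  -- `T` is Sylow in `P`
  have hoddP : Odd (T.relIndex (K ⊔ T)) := by
    have h := Subgroup.relIndex_mul_relIndex T (K ⊔ T) L hTP hPL
    rw [← h] at hToddL
    exact (Nat.odd_mul.mp hToddL).1
  have hsylP : IsSylowTwoIn T (K ⊔ T) := ⟨hTP, hT2, hoddP⟩
  -- `L` is in the family of `T`
  have hLM : ¬ L ≤ M := fun h => hK.2.1 (hKL.trans h)
  have h48 := Cfsg.Agent.S2948.result hchar hsolv hZ hO S M hM hMJ T hT L hLmax.1 hLM T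
    hsylL hJT
  have hLj : L ∈ jOvergroups T := h48.2.2.1
  have hCL : Subgroup.centralizer (pCoreOf 2 L : Set G) ≤ pCoreOf 2 L := hLj.2.2
  have hOLT : pCoreOf 2 L ≤ T := Cfsg.Agent.Helper55.J48.pCoreOf_le_of_sylowIn hsylL
  have hOLP : pCoreOf 2 L ≤ pCoreOf 2 (K ⊔ T) :=
    Cfsg.Agent.H31.X.H54.le_pCoreOf (hOLT.trans hTP)
      (hPL.trans (Cfsg.Agent.H31.X.H54.le_normalizer_pCoreOf L))
      (Cfsg.Agent.H31.X.H54.isPGroup_pCoreOf (p := 2) L)
  have hOPT : pCoreOf 2 (K ⊔ T) ≤ T := Cfsg.Agent.Helper55.J48.pCoreOf_le_of_sylowIn hsylP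
  have hC : Subgroup.centralizer (pCoreOf 2 (K ⊔ T) : Set G) ≤ pCoreOf 2 (K ⊔ T) :=
    (Subgroup.centralizer_le hOLP).trans (hCL.trans hOLP)
  -- the structure of `K`
  obtain ⟨hgen, hcomm, hrel3, -, -, -⟩ := hK.1.1
  have hS2 : IsPGroup 2 ↥(S : Subgroup G) := S.isPGroup'
  have hKnT : ¬ K ≤ Subgroup.normalizer (T : Set G) :=
    not_le_normalizer hgen hcomm hrel3 hT2 hJT
  have hKnS : ¬ K ≤ Subgroup.normalizer ((S : Subgroup G) : Set G) :=
    not_le_normalizer hgen hcomm hrel3 hS2 (hJT.trans hTS)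
  -- index 3
  have hOK : pCoreOf 2 K ≤ K := Subgroup.map_subtype_le _
  have hOKT : pCoreOf 2 K ≤ T := (Cfsg.Agent.H54.Uq.o2sn K L hKL hsub).trans hOLT
  haveI hKn : (K.subgroupOf (K ⊔ T)).Normal :=
    Cfsg.Agent.S2952.result hchar hsolv hZ hO S M hM hMJ T hT K hK
  have hsup : K.subgroupOf (K ⊔ T) ⊔ T.subgroupOf (K ⊔ T) = ⊤ := by
    rw [← Subgroup.subgroupOf_sup hKP hTP, Subgroup.subgroupOf_self]
  have hT0 : IsPGroup 2 ↥(T.subgroupOf (K ⊔ T)) := hT2.comap_subtype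
  have h3 : (T.subgroupOf (K ⊔ T)).index = 3 :=
    Cfsg.Agent.H59.PushKill.index_eq_three (K.subgroupOf (K ⊔ T)) (T.subgroupOf (K ⊔ T))
      ((pCoreOf 2 K).subgroupOf (K ⊔ T)) hsup hT0
      (fun x hx => hOK hx) (fun x hx => hOKT hx)
      (by rw [Subgroup.relIndex_subgroupOf hKP]; exact hrel3)
  have hnn : ¬ (T.subgroupOf (K ⊔ T)).Normal := by
    intro hn
    exact hKnT (hKP.trans ((Subgroup.normal_subgroupOf_iff_le_normalizer hTP).mp hn))
  have h6 : (T.subgroupOf (K ⊔ T)).normalCore.index = 6 :=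
    core_index_six _ hT0 h3 hnn
  have hcore : Cfsg.pCore 2 ↥(K ⊔ T) = (T.subgroupOf (K ⊔ T)).normalCore := by
    apply le_antisymm
    · haveI hn : (Cfsg.pCore 2 ↥(K ⊔ T)).Normal := Subgroup.sSup_normal _ (fun _ hH => hH.1)
      rw [Subgroup.normal_le_normalCore]
      intro x hx
      rw [Subgroup.mem_subgroupOf]
      exact hOPT (Subgroup.mem_map_of_mem _ hx)
    · exact le_sSup ⟨Subgroup.normalCore_normal _, hT0.to_le (Subgroup.normalCore_le _)⟩
  have hrel6 : (pCoreOf 2 (K ⊔ T)).relIndex (K ⊔ T) = 6 := by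
    have h : (pCoreOf 2 (K ⊔ T)).subgroupOf (K ⊔ T) = Cfsg.pCore 2 ↥(K ⊔ T) :=
      Subgroup.comap_map_eq_self_of_injective (Subgroup.subtype_injective _) _
    unfold Subgroup.relIndex
    rw [h, hcore]
    exact h6
  refine ⟨hC, hsylP, hrel6, ?_, ?_, hPL, hsylL, ?_⟩
  · -- the derived group is not in `O₂(P)`
    intro hder
    apply hKnT
    refine hKP.trans (Cfsg.Agent.H31.X.H54.le_normalizer_of_conj_mem ?_)
    intro g hg x hx
    have h1 : ⁅g, x⁆ ∈ T := hOPT (hder (Subgroup.commutator_mem_commutator hg (hTP hx)))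
    have h2 : g * x * g⁻¹ = ⁅g, x⁆ * x := by rw [commutatorElement_def]; group
    rw [h2]
    exact mul_mem h1 hx
  · -- `Ω₁Z(T)` is not central in `P`
    intro hbot
    have hZC : omegaCenterOf T ≤ Subgroup.centralizer ((K ⊔ T : Subgroup G) : Set G) :=
      Subgroup.commutator_eq_bot_iff_le_centralizer.mp hbot
    have hle : omegaCenterOf (S : Subgroup G) ≤ omegaCenterOf T := by
      intro y hy
      obtain ⟨hyS, hyC, hysq⟩ := Cfsg.Agent.H63.Sn.mem_omegaCenterOf _ hy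
      have hyCT : y ∈ Subgroup.centralizer (T : Set G) := Subgroup.centralizer_le hTS hyC
      have hyT : y ∈ T := hOLT (hCL (Subgroup.centralizer_le hOLT hyCT))
      exact Cfsg.Agent.H63.Sn.omegaCenterOf_mem _ hyT hyCT hysq
    apply hKnS
    refine le_trans ?_ (hZ S)
    intro k hk
    rw [Subgroup.mem_centralizer_iff]
    intro y hy
    exact ((Subgroup.mem_centralizer_iff.mp (hZC (hle hy))) k (hKP hk)).symm
  · intro L' hL' hP'
    exact huniq L' hL' ((sup_le_sup_left hJT K).trans hP')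

end Cfsg.Agent.H94.Jy

#print axioms Cfsg.Agent.H94.Jy.good_facts
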