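import Mathlib
import Cfsg.Prelude.Def_Sporadic_a

/-!
# Binary linear codes of length 24, dimension 12 and minimum weight at least 8
(helper94, for S5621-S5624): the sphere-packing count of the cosets.
-/

set_option autoImplicit false

namespace Cfsg.Agent.H94

open Finset

/-- Support of a binary word of length 24. -/
def supp2 (u : Fin 24 → ZMod 2) : Finset (Fin 24) := Finset.univ.filter fun i => u i ≠ 0

theorem hammingNorm_eq_supp2 (u : Fin 24 → ZMod 2) : hammingNorm u = (supp2 u).card := rfl

theorem zmod2_cases : ∀ a : ZMod 2, a = 0 ∨ a = 1 := by decide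

theorem mem_supp2 {u : Fin 24 → ZMod 2} {i : Fin 24} : i ∈ supp2 u ↔ u i = 1 := by
  unfold supp2
  rw [Finset.mem_filter]
  rcases zmod2_cases (u i) with h | h <;> simp [h]

theorem not_mem_supp2 {u : Fin 24 → ZMod 2} {i : Fin 24} : i ∉ supp2 u ↔ u i = 0 := by
  unfold supp2
  rw [Finset.mem_filter]
  simp

/-- A binary word is determined by its support. -/
theorem supp2_injective : Function.Injective supp2 := by
  intro u v h
  funext i
  by_cases hi : i ∈ supp2 u
  · have hv : i ∈ supp2 v := h ▸ hi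
    rw [mem_supp2.1 hi, mem_supp2.1 hv]
  · have hv : i ∉ supp2 v := h ▸ hi
    rw [not_mem_supp2.1 hi, not_mem_supp2.1 hv]

/-- The word with a given support. -/
def ind2 (s : Finset (Fin 24)) : Fin 24 → ZMod 2 := fun i => if i ∈ s then 1 else 0

theorem supp2_ind2 (s : Finset (Fin 24)) : supp2 (ind2 s) = s := by
  ext i
  rw [mem_supp2]
  unfold ind2
  by_cases h : i ∈ s <;> simp [h]

theorem mem_supp2_sub {u v : Fin 24 → ZMod 2} {i : Fin 24} :
    i ∈ supp2 (u - v) ↔ (i ∈ supp2 u ∧ i ∉ supp2 v) ∨ (i ∉ supp2 u ∧ i ∈ supp2 v) := by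
  rw [mem_supp2, mem_supp2, mem_supp2, Pi.sub_apply]
  rcases zmod2_cases (u i) with h | h <;> rcases zmod2_cases (v i) with h' | h' <;>
    rw [h, h'] <;> decide

theorem supp2_sub_subset (u v : Fin 24 → ZMod 2) : supp2 (u - v) ⊆ supp2 u ∪ supp2 v := by
  intro i hi
  rw [mem_supp2_sub] at hi
  rw [Finset.mem_union]
  rcases hi with h | h
  · left; exact h.1
  · right; exact h.2

theorem supp2_add (u v : Fin 24 → ZMod 2) : supp2 (u + v) = supp2 (u - v) := by
  have : u + v = u - v := by
    funext i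
    rw [Pi.add_apply, Pi.sub_apply]
    rcases zmod2_cases (u i) with h | h <;> rcases zmod2_cases (v i) with h' | h' <;>
      rw [h, h'] <;> decide
  rw [this]

/-- Two distinct words of weight at most 4 in the same coset of a code of minimum weight at
least 8 both have weight 4 and have disjoint supports. -/
theorem coset_two (C : Submodule (ZMod 2) (Fin 24 → ZMod 2))
    (hmin : ∀ w ∈ C, w ≠ 0 → 8 ≤ hammingNorm w) {u u' : Fin 24 → ZMod 2} (h : u - u' ∈ C)
    (hne : u ≠ u') (hu : hammingNorm u ≤ 4) (hu' : hammingNorm u' ≤ 4) :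
    hammingNorm u = 4 ∧ hammingNorm u' = 4 ∧ Disjoint (supp2 u) (supp2 u') := by
  have h8 := hmin _ h (sub_ne_zero.2 hne)
  rw [hammingNorm_eq_supp2] at h8 hu hu'
  have h1 := Finset.card_le_card (supp2_sub_subset u u')
  have h2 := Finset.card_union_le (supp2 u) (supp2 u')
  have h3 : (supp2 u ∪ supp2 u').card = (supp2 u).card + (supp2 u').card := by omega
  refine ⟨by rw [hammingNorm_eq_supp2]; omega, by rw [hammingNorm_eq_supp2]; omega, ?_⟩
  exact Finset.card_union_eq_card_add_card.1 h3

theorem card_weight_eq (k : ℕ) :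
    (Finset.univ.filter fun u : Fin 24 → ZMod 2 => hammingNorm u = k).card = Nat.choose 24 k := by
  have h1 : (Finset.univ.filter fun u : Fin 24 → ZMod 2 => hammingNorm u = k).card
      = (Finset.powersetCard k (Finset.univ : Finset (Fin 24))).card := by
    apply Finset.card_bij (fun u _ => supp2 u)
    · intro u hu
      rw [Finset.mem_filter] at hu
      rw [Finset.mem_powersetCard]
      exact ⟨Finset.subset_univ _, hu.2⟩
    · intro u _ v _ h
      exact supp2_injective h
    · intro s hs
      rw [Finset.mem_powersetCard] at hs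
      refine ⟨ind2 s, ?_, supp2_ind2 s⟩
      rw [Finset.mem_filter]
      refine ⟨Finset.mem_univ _, ?_⟩
      rw [hammingNorm_eq_supp2, supp2_ind2]
      exact hs.2
  rw [h1, Finset.card_powersetCard, Finset.card_univ, Fintype.card_fin]

theorem card_weight_le (m : ℕ) :
    (Finset.univ.filter fun u : Fin 24 → ZMod 2 => hammingNorm u ≤ m).card
      = ∑ k ∈ Finset.range (m + 1), Nat.choose 24 k := by
  rw [Finset.card_eq_sum_card_fiberwise (f := fun u : Fin 24 → ZMod 2 => hammingNorm u)
    (t := Finset.range (m + 1))]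
  · apply Finset.sum_congr rfl
    intro k hk
    rw [← card_weight_eq k]
    congr 1
    ext u
    simp only [Finset.mem_filter, Finset.mem_univ, true_and]
    rw [Finset.mem_range] at hk
    constructor
    · intro h; exact h.2
    · intro h; exact ⟨by omega, h⟩
  · intro u hu
    simp only [Finset.coe_filter, Finset.mem_univ, true_and, Set.mem_ofPred_eq] at hu
    simp only [Finset.coe_range, Set.mem_Iio]
    omega

theorem card_weight_le_three :
    (Finset.univ.filter fun u : Fin 24 → ZMod 2 => hammingNorm u ≤ 3).card = 2325 := by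
  rw [card_weight_le]; decide

theorem card_weight_le_four :
    (Finset.univ.filter fun u : Fin 24 → ZMod 2 => hammingNorm u ≤ 4).card = 12951 := by
  rw [card_weight_le]; decide


/-- The cosets of a binary `[24, 12, ≥ 8]` code: each coset contains either a single word of weight
at most 4, of weight at most 3, or exactly six words of weight at most 4, all of weight 4. -/
theorem coset_count (C : Submodule (ZMod 2) (Fin 24 → ZMod 2))
    (hdim : Module.finrank (ZMod 2) C = 12)
    (hmin : ∀ w ∈ C, w ≠ 0 → 8 ≤ hammingNorm w) (w : Fin 24 → ZMod 2) :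
    (∃ u, {u : Fin 24 → ZMod 2 | u - w ∈ C ∧ hammingNorm u ≤ 4} = {u} ∧ hammingNorm u ≤ 3) ∨
    ({u : Fin 24 → ZMod 2 | u - w ∈ C ∧ hammingNorm u ≤ 4}.ncard = 6 ∧
      ∀ u ∈ {u : Fin 24 → ZMod 2 | u - w ∈ C ∧ hammingNorm u ≤ 4}, hammingNorm u = 4) := by
  classical
  let A : AddSubgroup (Fin 24 → ZMod 2) := C.toAddSubgroup
  let π : (Fin 24 → ZMod 2) → (Fin 24 → ZMod 2) ⧸ A := QuotientAddGroup.mk
  have hπ : ∀ u v, π u = π v ↔ u - v ∈ C := by
    intro u v
    show (QuotientAddGroup.mk u : (Fin 24 → ZMod 2) ⧸ A) = QuotientAddGroup.mk v ↔ _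
    rw [QuotientAddGroup.eq]
    constructor
    · intro h
      have h' : -u + v ∈ C := h
      have : u - v = -(-u + v) := by abel
      rw [this]; exact C.neg_mem h'
    · intro h
      have : -u + v = -(u - v) := by abel
      show -u + v ∈ C
      rw [this]; exact C.neg_mem h
  have : Fintype ((Fin 24 → ZMod 2) ⧸ A) := Fintype.ofFinite _
  have hcardQ : Fintype.card ((Fin 24 → ZMod 2) ⧸ A) = 4096 := by
    have h1 := AddSubgroup.card_eq_card_quotient_mul_card_addSubgroup A
    have h2 : Nat.card (Fin 24 → ZMod 2) = 2 ^ 24 := by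
      rw [Nat.card_eq_fintype_card]; simp
    have h3 : Nat.card A = 2 ^ 12 := by
      have := Module.natCard_eq_pow_finrank (K := ZMod 2) (V := C)
      rw [hdim, Nat.card_zmod] at this
      exact this
    rw [h2, h3, Nat.card_eq_fintype_card] at h1
    norm_num at h1
    omega
  let S4 : Finset (Fin 24 → ZMod 2) := Finset.univ.filter fun u => hammingNorm u ≤ 4
  let S3 : Finset (Fin 24 → ZMod 2) := Finset.univ.filter fun u => hammingNorm u ≤ 3
  let f : (Fin 24 → ZMod 2) ⧸ A → ℕ := fun c => (S4.filter fun u => π u = c).card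
  have hsum : ∑ c, f c = 12951 := by
    rw [← card_weight_le_four]
    exact (Finset.card_eq_sum_card_fiberwise (f := π) (s := S4) (t := Finset.univ)
      (fun u _ => Finset.mem_coe.2 (Finset.mem_univ _))).symm
  let Lt : Finset ((Fin 24 → ZMod 2) ⧸ A) := S3.image π
  have hinj : Set.InjOn π (S3 : Set (Fin 24 → ZMod 2)) := by
    intro u hu v hv h
    by_contra hne
    have hu' : hammingNorm u ≤ 3 := (Finset.mem_filter.1 (Finset.mem_coe.1 hu)).2
    have hv' : hammingNorm v ≤ 3 := (Finset.mem_filter.1 (Finset.mem_coe.1 hv)).2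
    have := coset_two C hmin ((hπ u v).1 h) hne (by omega) (by omega)
    omega
  have hLt : Lt.card = 2325 := by
    rw [Finset.card_image_of_injOn hinj]; exact card_weight_le_three
  have hfiber : ∀ u0 ∈ S3, (S4.filter fun u => π u = π u0) = {u0} := by
    intro u0 hu0
    have hu0' : hammingNorm u0 ≤ 3 := (Finset.mem_filter.1 hu0).2
    ext u
    rw [Finset.mem_filter, Finset.mem_singleton]
    constructor
    · rintro ⟨hu, hπu⟩
      by_contra hne
      have hu' : hammingNorm u ≤ 4 := (Finset.mem_filter.1 hu).2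
      have := coset_two C hmin ((hπ u u0).1 hπu) hne hu' (by omega)
      omega
    · rintro rfl
      exact ⟨Finset.mem_filter.2 ⟨Finset.mem_univ _, by omega⟩, rfl⟩
  have hf1 : ∀ c ∈ Lt, f c = 1 := by
    intro c hc
    obtain ⟨u0, hu0, rfl⟩ := Finset.mem_image.1 hc
    show (S4.filter fun u => π u = π u0).card = 1
    rw [hfiber u0 hu0, Finset.card_singleton]
  have hf4 : ∀ c, c ∉ Lt → ∀ u ∈ (S4.filter fun u => π u = c), hammingNorm u = 4 := by
    intro c hc u hu
    rw [Finset.mem_filter] at hu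
    have hu' : hammingNorm u ≤ 4 := (Finset.mem_filter.1 hu.1).2
    by_contra h4
    apply hc
    exact Finset.mem_image.2 ⟨u, Finset.mem_filter.2 ⟨Finset.mem_univ _, by omega⟩, hu.2⟩
  have hf6 : ∀ c, c ∉ Lt → f c ≤ 6 := by
    intro c hc
    have hdisj : ((S4.filter fun u => π u = c) : Set (Fin 24 → ZMod 2)).PairwiseDisjoint supp2 := by
      intro u hu v hv hne
      have hu2 := Finset.mem_filter.1 (Finset.mem_coe.1 hu)
      have hv2 := Finset.mem_filter.1 (Finset.mem_coe.1 hv)
      have := coset_two C hmin ((hπ u v).1 (hu2.2.trans hv2.2.symm)) hne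
        (Finset.mem_filter.1 hu2.1).2 (Finset.mem_filter.1 hv2.1).2
      exact this.2.2
    have h1 := Finset.card_biUnion hdisj
    have h2 : ∑ u ∈ (S4.filter fun u => π u = c), (supp2 u).card = 4 * f c := by
      rw [Finset.sum_congr rfl (fun u hu => (hammingNorm_eq_supp2 u).symm.trans (hf4 c hc u hu))]
      rw [Finset.sum_const, smul_eq_mul, mul_comm]
    have h3 : ((S4.filter fun u => π u = c).biUnion supp2).card ≤ 24 := by
      have := Finset.card_le_univ ((S4.filter fun u => π u = c).biUnion supp2)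
      simpa using this
    omega
  have hsplit : ∑ c, f c = ∑ c ∈ Finset.univ \ Lt, f c + ∑ c ∈ Lt, f c :=
    (Finset.sum_sdiff (Finset.subset_univ Lt)).symm
  have hLtsum : ∑ c ∈ Lt, f c = 2325 := by
    rw [Finset.sum_congr rfl hf1, Finset.sum_const, smul_eq_mul, hLt]
  have hcompl : (Finset.univ \ Lt).card = 1771 := by
    rw [Finset.card_sdiff_of_subset (Finset.subset_univ Lt), Finset.card_univ, hcardQ, hLt]
  have hrest : ∑ c ∈ Finset.univ \ Lt, f c = ∑ c ∈ Finset.univ \ Lt, 6 := by
    rw [Finset.sum_const, smul_eq_mul, hcompl]; omega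
  have hsix : ∀ c, c ∉ Lt → f c = 6 := by
    intro c hc
    have := (Finset.sum_eq_sum_iff_of_le (fun c hc => hf6 c (Finset.mem_sdiff.1 hc).2)).1 hrest
    exact this c (Finset.mem_sdiff.2 ⟨Finset.mem_univ _, hc⟩)
  have hF : {u : Fin 24 → ZMod 2 | u - w ∈ C ∧ hammingNorm u ≤ 4}
      = ((S4.filter fun u => π u = π w : Finset (Fin 24 → ZMod 2)) : Set (Fin 24 → ZMod 2)) := by
    ext u
    rw [Finset.mem_coe, Finset.mem_filter, Finset.mem_filter, hπ]
    constructor
    · intro h; exact ⟨⟨Finset.mem_univ _, h.2⟩, h.1⟩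
    · intro h; exact ⟨h.2, h.1.2⟩
  rw [hF]
  by_cases hc : π w ∈ Lt
  · left
    obtain ⟨u0, hu0, hu0w⟩ := Finset.mem_image.1 hc
    have hu0' : hammingNorm u0 ≤ 3 := (Finset.mem_filter.1 hu0).2
    refine ⟨u0, ?_, hu0'⟩
    rw [← hu0w, hfiber u0 hu0, Finset.coe_singleton]
  · right
    refine ⟨?_, fun u hu => hf4 _ hc u (Finset.mem_coe.1 hu)⟩
    rw [Set.ncard_coe_finset]
    exact hsix _ hc


theorem supp2_sub_subset' (u v : Fin 24 → ZMod 2) :
    supp2 (u - v) ⊆ (supp2 u \ supp2 v) ∪ (supp2 v \ supp2 u) := by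
  intro i hi
  rw [mem_supp2_sub] at hi
  rw [Finset.mem_union, Finset.mem_sdiff, Finset.mem_sdiff]
  rcases hi with h | h
  · left; exact h
  · right; exact ⟨h.2, h.1⟩

theorem supp2_sub_of_disjoint {u v : Fin 24 → ZMod 2} (h : Disjoint (supp2 u) (supp2 v)) :
    supp2 (u - v) = supp2 u ∪ supp2 v := by
  ext i
  rw [mem_supp2_sub, Finset.mem_union]
  constructor
  · rintro (h1 | h1)
    · left; exact h1.1
    · right; exact h1.2
  · rintro (h1 | h1)
    · left; exact ⟨h1, Finset.disjoint_left.1 h h1⟩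
    · right; exact ⟨Finset.disjoint_right.1 h h1, h1⟩

/-- In a binary `[24, 12, ≥ 8]` code every 5-set lies in the support of a word of weight 8. -/
theorem exists_octad (C : Submodule (ZMod 2) (Fin 24 → ZMod 2))
    (hdim : Module.finrank (ZMod 2) C = 12)
    (hmin : ∀ w ∈ C, w ≠ 0 → 8 ≤ hammingNorm w) (s : Finset (Fin 24)) (hs : s.card = 5) :
    ∃ c ∈ C, hammingNorm c = 8 ∧ s ⊆ supp2 c := by
  classical
  have hne : s.Nonempty := by
    rw [← Finset.card_pos]; omega
  obtain ⟨p, hp⟩ := hne
  have ht : (s.erase p).card = 4 := by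
    rw [Finset.card_erase_of_mem hp]; omega
  have hpt : p ∉ s.erase p := Finset.notMem_erase p s
  have hwt : hammingNorm (ind2 (s.erase p)) = 4 := by
    rw [hammingNorm_eq_supp2, supp2_ind2]; exact ht
  have hself : ind2 (s.erase p) ∈ {u : Fin 24 → ZMod 2 | u - ind2 (s.erase p) ∈ C ∧ hammingNorm u ≤ 4} := by
    refine ⟨?_, by omega⟩
    rw [sub_self]; exact C.zero_mem
  rcases coset_count C hdim hmin (ind2 (s.erase p)) with ⟨u, hu, hu3⟩ | ⟨h6, h4⟩
  · exfalso
    rw [hu, Set.mem_singleton_iff] at hself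
    rw [← hself] at hu3
    omega
  · have hfin : ({u : Fin 24 → ZMod 2 | u - ind2 (s.erase p) ∈ C ∧ hammingNorm u ≤ 4}).Finite :=
      Set.toFinite _
    have hcard : hfin.toFinset.card = 6 := by
      rw [← Set.ncard_eq_toFinset_card _ hfin]; exact h6
    have hmemT : ∀ u, u ∈ hfin.toFinset ↔ (u - ind2 (s.erase p) ∈ C ∧ hammingNorm u ≤ 4) := by
      intro u; rw [Set.Finite.mem_toFinset]; rfl
    have hsub : ∀ u u', u ∈ hfin.toFinset → u' ∈ hfin.toFinset → u - u' ∈ C := by
      intro u u' hu hu'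
      have : u - u' = (u - ind2 (s.erase p)) - (u' - ind2 (s.erase p)) := by abel
      rw [this]; exact C.sub_mem ((hmemT u).1 hu).1 ((hmemT u').1 hu').1
    have hdisj : (hfin.toFinset : Set (Fin 24 → ZMod 2)).PairwiseDisjoint supp2 := by
      intro u hu v hv hne
      exact (coset_two C hmin (hsub u v hu hv) hne ((hmemT u).1 hu).2 ((hmemT v).1 hv).2).2.2
    have h1 := Finset.card_biUnion hdisj
    have h2 : ∑ u ∈ hfin.toFinset, (supp2 u).card = 24 := by
      rw [Finset.sum_congr rfl (fun u hu => (hammingNorm_eq_supp2 u).symm.trans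
        (h4 u ((hmemT u).1 hu)))]
      rw [Finset.sum_const, smul_eq_mul, hcard]
    have h3 : hfin.toFinset.biUnion supp2 = Finset.univ := by
      apply Finset.eq_univ_of_card
      rw [h1, h2]; simp
    have hpmem : p ∈ hfin.toFinset.biUnion supp2 := by rw [h3]; exact Finset.mem_univ p
    obtain ⟨u', hu', hpu'⟩ := Finset.mem_biUnion.1 hpmem
    have hne : ind2 (s.erase p) ≠ u' := by
      intro e
      rw [← e, supp2_ind2] at hpu'
      exact hpt hpu'
    have hself' : ind2 (s.erase p) ∈ hfin.toFinset := (hmemT _).2 hself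
    have hc := hsub _ _ hself' hu'
    have hd := (coset_two C hmin hc hne (by omega) ((hmemT u').1 hu').2)
    refine ⟨ind2 (s.erase p) - u', hc, ?_, ?_⟩
    · rw [hammingNorm_eq_supp2, supp2_sub_of_disjoint hd.2.2,
        Finset.card_union_of_disjoint hd.2.2, ← hammingNorm_eq_supp2, ← hammingNorm_eq_supp2,
        hd.1, hd.2.1]
    · rw [supp2_sub_of_disjoint hd.2.2, supp2_ind2]
      intro i hi
      rw [Finset.mem_union]
      by_cases hip : i = p
      · right; rw [hip]; exact hpu'
      · left; exact Finset.mem_erase.2 ⟨hip, hi⟩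

/-- Two words of weight 8 of a code of minimum weight at least 8 sharing 5 support points
are equal. -/
theorem octad_unique (C : Submodule (ZMod 2) (Fin 24 → ZMod 2))
    (hmin : ∀ w ∈ C, w ≠ 0 → 8 ≤ hammingNorm w) {c c' : Fin 24 → ZMod 2} (hc : c ∈ C)
    (hc' : c' ∈ C) (h8 : hammingNorm c = 8) (h8' : hammingNorm c' = 8) (s : Finset (Fin 24))
    (hs : 5 ≤ s.card) (h1 : s ⊆ supp2 c) (h2 : s ⊆ supp2 c') : c = c' := by
  by_contra hne
  have h := hmin _ (C.sub_mem hc hc') (sub_ne_zero.2 hne)
  rw [hammingNorm_eq_supp2] at h h8 h8'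
  have ha := Finset.card_le_card (supp2_sub_subset' c c')
  have hb := Finset.card_union_le (supp2 c \ supp2 c') (supp2 c' \ supp2 c)
  have hc1 := Finset.card_sdiff_add_card_inter (supp2 c) (supp2 c')
  have hc2 := Finset.card_sdiff_add_card_inter (supp2 c') (supp2 c)
  have hi1 : s ⊆ supp2 c ∩ supp2 c' := Finset.subset_inter h1 h2
  have hi2 : s ⊆ supp2 c' ∩ supp2 c := Finset.subset_inter h2 h1
  have hd1 := Finset.card_le_card hi1
  have hd2 := Finset.card_le_card hi2
  omega

/-- A binary `[24, 12, ≥ 8]` code is spanned by its words of weight 8. -/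
theorem span_octads (C : Submodule (ZMod 2) (Fin 24 → ZMod 2))
    (hdim : Module.finrank (ZMod 2) C = 12)
    (hmin : ∀ w ∈ C, w ≠ 0 → 8 ≤ hammingNorm w) :
    Submodule.span (ZMod 2) {w : Fin 24 → ZMod 2 | w ∈ C ∧ hammingNorm w = 8} = C := by
  apply le_antisymm
  · apply Submodule.span_le.2
    intro w hw
    exact hw.1
  · have key : ∀ n : ℕ, ∀ c ∈ C, hammingNorm c ≤ n →
        c ∈ Submodule.span (ZMod 2) {w : Fin 24 → ZMod 2 | w ∈ C ∧ hammingNorm w = 8} := by
      intro n
      induction n with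
      | zero =>
        intro c _ h0
        have : c = 0 := hammingNorm_eq_zero.1 (by omega)
        rw [this]; exact Submodule.zero_mem _
      | succ n ih =>
        intro c hc hn
        by_cases h0 : c = 0
        · rw [h0]; exact Submodule.zero_mem _
        · have h8 := hmin c hc h0
          rw [hammingNorm_eq_supp2] at h8 hn
          obtain ⟨s, hs, hs5⟩ := Finset.exists_subset_card_eq (s := supp2 c) (n := 5) (by omega)
          obtain ⟨o, ho, ho8, hso⟩ := exists_octad C hdim hmin s hs5
          have hoS : o ∈ Submodule.span (ZMod 2)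
              {w : Fin 24 → ZMod 2 | w ∈ C ∧ hammingNorm w = 8} :=
            Submodule.subset_span ⟨ho, ho8⟩
          have hlt : hammingNorm (c - o) ≤ n := by
            rw [hammingNorm_eq_supp2] at ho8 ⊢
            have ha := Finset.card_le_card (supp2_sub_subset' c o)
            have hb := Finset.card_union_le (supp2 c \ supp2 o) (supp2 o \ supp2 c)
            have hc1 := Finset.card_sdiff_add_card_inter (supp2 c) (supp2 o)
            have hc2 := Finset.card_sdiff_add_card_inter (supp2 o) (supp2 c)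
            have hd1 := Finset.card_le_card (Finset.subset_inter hs hso)
            have hd2 := Finset.card_le_card (Finset.subset_inter hso hs)
            omega
          have := ih (c - o) (C.sub_mem hc ho) hlt
          have e : c = (c - o) + o := by abel
          rw [e]
          exact Submodule.add_mem _ this hoS
    intro c hc
    exact key _ c hc le_rfl

/-- Weights of orthogonal binary words: if `u` and `v` have weights divisible by 4 and an even
number of common coordinates, the weight of `u + v` is divisible by 4. -/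
theorem four_dvd_add {u v : Fin 24 → ZMod 2} (hu : 4 ∣ hammingNorm u) (hv : 4 ∣ hammingNorm v)
    (horth : ∑ i, u i * v i = 0) : 4 ∣ hammingNorm (u + v) := by
  rw [hammingNorm_eq_supp2] at hu hv ⊢
  rw [supp2_add]
  have hk : ∑ i, u i * v i = ((supp2 u ∩ supp2 v).card : ZMod 2) := by
    have : ∀ i, u i * v i = if i ∈ supp2 u ∩ supp2 v then 1 else 0 := by
      intro i
      by_cases h1 : i ∈ supp2 u <;> by_cases h2 : i ∈ supp2 v
      · rw [if_pos (Finset.mem_inter.2 ⟨h1, h2⟩), mem_supp2.1 h1, mem_supp2.1 h2, mul_one]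
      · rw [if_neg (fun h => h2 (Finset.mem_inter.1 h).2), not_mem_supp2.1 h2, mul_zero]
      · rw [if_neg (fun h => h1 (Finset.mem_inter.1 h).1), not_mem_supp2.1 h1, zero_mul]
      · rw [if_neg (fun h => h1 (Finset.mem_inter.1 h).1), not_mem_supp2.1 h1, zero_mul]
    rw [Finset.sum_congr rfl (fun i _ => this i), Finset.sum_boole]
    congr 2
    ext i
    simp
  rw [horth] at hk
  have hk2 : 2 ∣ (supp2 u ∩ supp2 v).card := (ZMod.natCast_eq_zero_iff _ 2).1 hk.symm
  have hdisj : Disjoint (supp2 u \ supp2 v) (supp2 v \ supp2 u) := by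
    rw [Finset.disjoint_left]
    intro i h1 h2
    exact (Finset.mem_sdiff.1 h2).2 (Finset.mem_sdiff.1 h1).1
  have heq : supp2 (u - v) = (supp2 u \ supp2 v) ∪ (supp2 v \ supp2 u) := by
    apply Finset.Subset.antisymm (supp2_sub_subset' u v)
    intro i hi
    rw [mem_supp2_sub]
    rw [Finset.mem_union, Finset.mem_sdiff, Finset.mem_sdiff] at hi
    rcases hi with h | h
    · left; exact h
    · right; exact ⟨h.2, h.1⟩
  rw [heq, Finset.card_union_of_disjoint hdisj]
  have hc1 := Finset.card_sdiff_add_card_inter (supp2 u) (supp2 v)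
  have hc2 := Finset.card_sdiff_add_card_inter (supp2 v) (supp2 u)
  rw [Finset.inter_comm (supp2 v) (supp2 u)] at hc2
  omega

/-- A self-orthogonal binary `[24, 12, ≥ 8]` code is doubly even. -/
theorem doubly_even (C : Submodule (ZMod 2) (Fin 24 → ZMod 2))
    (hdim : Module.finrank (ZMod 2) C = 12)
    (horth : ∀ v ∈ C, ∀ w ∈ C, ∑ i, v i * w i = 0)
    (hmin : ∀ w ∈ C, w ≠ 0 → 8 ≤ hammingNorm w) : ∀ w ∈ C, 4 ∣ hammingNorm w := by
  intro w hw
  have hspan := span_octads C hdim hmin
  have key : ∀ c ∈ Submodule.span (ZMod 2) {w : Fin 24 → ZMod 2 | w ∈ C ∧ hammingNorm w = 8},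
      c ∈ C ∧ 4 ∣ hammingNorm c := by
    intro c hc
    induction hc using Submodule.span_induction with
    | mem x hx => exact ⟨hx.1, by rw [hx.2]; norm_num⟩
    | zero => exact ⟨C.zero_mem, by rw [hammingNorm_zero]; exact dvd_zero 4⟩
    | add x y _ _ hx hy => exact ⟨C.add_mem hx.1 hy.1, four_dvd_add hx.2 hy.2 (horth x hx.1 y hy.1)⟩
    | smul a x _ hx =>
      rcases zmod2_cases a with h | h
      · rw [h, zero_smul]; exact ⟨C.zero_mem, by rw [hammingNorm_zero]; exact dvd_zero 4⟩
      · rw [h, one_smul]; exact hx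
  rw [← hspan] at hw
  exact (key w hw).2

end Cfsg.Agent.H94
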