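import Cfsg.Agent.H94.JxPFacts

/-!
# S2953 (kill sub-project JX): the elements of order 3 of `K` for a configuration (helper94)

From `Base S M T K L`, with `P = K ⊔ T`, `Q = O₂(P)`, `O = O₂(K)`: `K` has an element `k` of
order 3; `K = O⟨k⟩` for every such `k` (so a subgroup containing `O` and `k` contains `K`); and
every `x ∈ T ∖ Q` inverts `k` modulo `Q`.
-/

set_option autoImplicit false
set_option linter.style.haveILetI false
open Cfsg

universe u

namespace Cfsg.Agent.H94.Jx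

open Cfsg.Agent.H64.Jz
open scoped commutatorElement

/-- in a non-abelian group of order 6 an involution inverts every element of order 3 -/
theorem inv_of_card_six {H : Type*} [Group H] [Finite H] (h6 : Nat.card H = 6)
    (hna : ¬ ∀ a b : H, a * b = b * a) (k x : H) (hk3 : k ^ 3 = 1) (hk1 : k ≠ 1)
    (hx2 : x ^ 2 = 1) (hx1 : x ≠ 1) : x * k * x⁻¹ * k = 1 := by
  haveI : Fact (Nat.Prime 3) := ⟨Nat.prime_three⟩
  haveI : Fact (Nat.Prime 2) := ⟨Nat.prime_two⟩
  have ok : orderOf k = 3 := orderOf_eq_prime hk3 hk1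
  have ox : orderOf x = 2 := orderOf_eq_prime hx2 hx1
  have hcardk : Nat.card ↥(Subgroup.zpowers k) = 3 := by rw [Nat.card_zpowers, ok]
  have hcardx : Nat.card ↥(Subgroup.zpowers x) = 2 := by rw [Nat.card_zpowers, ox]
  have htop : ∀ A : Subgroup H, k ∈ A → x ∈ A → A = ⊤ := by
    intro A hkA hxA
    have h3 : 3 ∣ Nat.card ↥A := by
      rw [← hcardk]
      exact Subgroup.card_dvd_of_le ((Subgroup.zpowers_le).mpr hkA)
    have h2 : 2 ∣ Nat.card ↥A := by
      rw [← hcardx]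
      exact Subgroup.card_dvd_of_le ((Subgroup.zpowers_le).mpr hxA)
    have h6' : 2 * 3 ∣ Nat.card ↥A :=
      Nat.Coprime.mul_dvd_of_dvd_of_dvd (by norm_num) h2 h3
    have hle : Nat.card ↥A ∣ 6 := h6 ▸ Subgroup.card_subgroup_dvd_card A
    have hA6 : Nat.card ↥A = 6 := Nat.dvd_antisymm hle h6'
    exact Subgroup.eq_top_of_card_eq A (by rw [hA6, h6])
  have hidx : (Subgroup.zpowers k).index = 2 := by
    have h := (Subgroup.zpowers k).card_mul_index
    rw [hcardk, h6] at h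
    omega
  haveI hn : (Subgroup.zpowers k).Normal := Subgroup.normal_of_index_eq_two hidx
  have hmem : x * k * x⁻¹ ∈ Subgroup.zpowers k := hn.conj_mem k (Subgroup.mem_zpowers k) x
  have hpow : x * k * x⁻¹ ∈ Submonoid.powers k := (mem_powers_iff_mem_zpowers).mpr hmem
  obtain ⟨n, hn'⟩ := (Submonoid.mem_powers_iff _ _).mp hpow
  have hmod : k ^ (n % 3) = x * k * x⁻¹ := by
    have h := pow_mod_orderOf k n
    rw [ok] at h
    rw [h, hn']
  have hlt : n % 3 < 3 := Nat.mod_lt _ (by norm_num)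
  rcases Nat.lt_succ_iff_lt_or_eq.mp hlt with h01 | h2
  · rcases Nat.lt_succ_iff_lt_or_eq.mp h01 with h0 | h1
    · -- `x k x⁻¹ = 1`
      exfalso
      have h0' : n % 3 = 0 := by omega
      rw [h0', pow_zero] at hmod
      apply hk1
      have : k = x⁻¹ * (x * k * x⁻¹) * x := by group
      rw [this, ← hmod]
      group
    · -- `x` commutes with `k`: the group is abelian
      exfalso
      rw [h1, pow_one] at hmod
      have hxk : x * k = k * x := by
        calc x * k = x * k * x⁻¹ * x := by group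
          _ = k * x := by rw [← hmod]
      have hCk : Subgroup.centralizer ({k} : Set H) = ⊤ := by
        apply htop
        · exact Subgroup.mem_centralizer_iff.mpr (fun y hy => by rw [Set.mem_singleton_iff.mp hy])
        · exact Subgroup.mem_centralizer_iff.mpr
            (fun y hy => by rw [Set.mem_singleton_iff.mp hy]; exact hxk.symm)
      have hCx : Subgroup.centralizer ({x} : Set H) = ⊤ := by
        apply htop
        · exact Subgroup.mem_centralizer_iff.mpr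
            (fun y hy => by rw [Set.mem_singleton_iff.mp hy]; exact hxk)
        · exact Subgroup.mem_centralizer_iff.mpr (fun y hy => by rw [Set.mem_singleton_iff.mp hy])
      have hkc : k ∈ Subgroup.center H := by
        rw [Subgroup.mem_center_iff]
        intro g
        have hg : g ∈ Subgroup.centralizer ({k} : Set H) := by rw [hCk]; exact Subgroup.mem_top g
        exact ((Subgroup.mem_centralizer_iff.mp hg) k rfl).symm
      have hxc : x ∈ Subgroup.center H := by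
        rw [Subgroup.mem_center_iff]
        intro g
        have hg : g ∈ Subgroup.centralizer ({x} : Set H) := by rw [hCx]; exact Subgroup.mem_top g
        exact ((Subgroup.mem_centralizer_iff.mp hg) x rfl).symm
      have hZ : Subgroup.center H = ⊤ := htop _ hkc hxc
      apply hna
      intro a b
      have hb : b ∈ Subgroup.center H := by rw [hZ]; exact Subgroup.mem_top b
      exact Subgroup.mem_center_iff.mp hb a
  · rw [h2] at hmod
    rw [← hmod, ← pow_succ]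
    exact hk3

/-- **K3-FACTS** for a configuration. -/
theorem k3facts {G : Type u} [Group G] [Finite G] (S : Sylow 2 G) (M T K L : Subgroup G)
    (hB : Base S M T K L) :
    (∃ k ∈ K, k ^ 3 = 1 ∧ k ≠ 1) ∧
    (∀ k ∈ K, k ^ 3 = 1 → k ≠ 1 → ∀ X : Subgroup G, pCoreOf 2 K ≤ X → k ∈ X → K ≤ X) ∧
    (∀ k ∈ K, k ^ 3 = 1 → ∀ x ∈ T, x ∉ pCoreOf 2 (K ⊔ T) →
      x * k * x⁻¹ * k ∈ pCoreOf 2 (K ⊔ T)) := by
  haveI : Fact (Nat.Prime 3) := ⟨Nat.prime_three⟩
  obtain ⟨hQT, hQ1, hPQ, hTP3, hQT2, hinf, hcoreP⟩ := pfacts S M T K L hB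
  obtain ⟨-, hsylP, hrel6, hder, -, -, -, -⟩ := Cfsg.Agent.H94.Jy.good_facts S M T K L hB
  have hT2 : IsPGroup 2 ↥T := hsylP.2.1
  obtain ⟨hgen, hcomm, hrel3, -, -, -⟩ := hB.2.2.2.2.2.2.1.1.1
  have hOK : pCoreOf 2 K ≤ K := Subgroup.map_subtype_le _
  have hO2 : IsPGroup 2 ↥(pCoreOf 2 K) := Cfsg.Agent.H31.X.H54.isPGroup_pCoreOf (p := 2) K
  have hTP : T ≤ K ⊔ T := le_sup_right
  have hKP : K ≤ K ⊔ T := le_sup_left
  -- an element of order 3 in a 2-group is trivial
  have h2grp : ∀ (X : Subgroup G), IsPGroup 2 ↥X → ∀ k ∈ X, k ^ 3 = 1 → k = 1 := by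
    intro X hX k hkX hk3
    obtain ⟨n, hn⟩ := hX ⟨k, hkX⟩
    have hn' : k ^ 2 ^ n = 1 := congrArg Subtype.val hn
    have h1 : orderOf k ∣ 2 ^ n := orderOf_dvd_of_pow_eq_one hn'
    have h2 : orderOf k ∣ 3 := orderOf_dvd_of_pow_eq_one hk3
    have hcop : Nat.Coprime (2 ^ n) 3 := Nat.Coprime.pow_left n (by norm_num)
    have h3 : orderOf k ∣ 1 := by
      have h := Nat.dvd_gcd h1 h2
      rwa [hcop.gcd_eq_one] at h
    exact orderOf_eq_one_iff.mp (Nat.dvd_one.mp h3)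
  refine ⟨?_, ?_, ?_⟩
  · have hcard : Nat.card ↥(pCoreOf 2 K) * 3 = Nat.card ↥K := by
      have h := Subgroup.relIndex_mul_relIndex (⊥ : Subgroup G) (pCoreOf 2 K) K bot_le hOK
      rwa [Subgroup.relIndex_bot_left, Subgroup.relIndex_bot_left, hrel3] at h
    have hdvd : 3 ∣ Nat.card ↥K := Dvd.intro_left _ hcard
    obtain ⟨k, hk⟩ := exists_prime_orderOf_dvd_card' 3 hdvd
    have hk' : orderOf (k : G) = 3 := by rw [Subgroup.orderOf_coe]; exact hk
    refine ⟨(k : G), k.2, ?_, ?_⟩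
    · rw [← hk']
      exact pow_orderOf_eq_one _
    · intro h1
      rw [h1, orderOf_one] at hk'
      omega
  · intro k hkK hk3 hk1 X hOX hkX
    have hkO : k ∉ pCoreOf 2 K := fun h => hk1 (h2grp _ hO2 k h hk3)
    have h := Subgroup.relIndex_mul_relIndex (pCoreOf 2 K) (X ⊓ K) K (le_inf hOX hOK) inf_le_right
    rw [hrel3] at h
    have hd : (X ⊓ K).relIndex K ∣ 3 := Dvd.intro_left _ h
    rcases (Nat.dvd_prime Nat.prime_three).mp hd with h1 | h1
    · exact (Subgroup.relIndex_eq_one.mp h1).trans inf_le_left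
    · rw [h1] at h
      have h2 : (pCoreOf 2 K).relIndex (X ⊓ K) = 1 := by omega
      exact absurd (Subgroup.relIndex_eq_one.mp h2 (Subgroup.mem_inf.mpr ⟨hkX, hkK⟩)) hkO
  · intro k hkK hk3 x hxT hxQ
    by_cases hk1 : k = 1
    · -- trivial case: `x * x ∈ Q` is not needed, `x 1 x⁻¹ 1 = 1`
      rw [hk1]
      simp
    haveI hNn : (Cfsg.pCore 2 ↥(K ⊔ T)).Normal := Subgroup.sSup_normal _ (fun _ hH => hH.1)
    have hmemQ : ∀ y : ↥(K ⊔ T), y ∈ Cfsg.pCore 2 ↥(K ⊔ T) ↔ (y : G) ∈ pCoreOf 2 (K ⊔ T) := by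
      intro y
      constructor
      · intro hy
        exact Subgroup.mem_map_of_mem (K ⊔ T).subtype hy
      · rintro ⟨y', hy', hyy⟩
        have : y' = y := Subtype.ext hyy
        rw [← this]
        exact hy'
    have hidx6 : (Cfsg.pCore 2 ↥(K ⊔ T)).index = 6 := by
      have h : (pCoreOf 2 (K ⊔ T)).subgroupOf (K ⊔ T) = Cfsg.pCore 2 ↥(K ⊔ T) :=
        Subgroup.comap_map_eq_self_of_injective (Subgroup.subtype_injective _) _
      rw [← h]
      exact hrel6
    have hidx2 : ((pCoreOf 2 (K ⊔ T)).subgroupOf T).index = 2 := hQT2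
    have h6 : Nat.card (↥(K ⊔ T) ⧸ Cfsg.pCore 2 ↥(K ⊔ T)) = 6 := by
      rw [← Subgroup.index_eq_card]
      exact hidx6
    have hna : ¬ ∀ a b : ↥(K ⊔ T) ⧸ Cfsg.pCore 2 ↥(K ⊔ T), a * b = b * a := by
      intro hab
      apply hder
      rw [Subgroup.commutator_le]
      intro a ha b hb
      have h1 := hab (QuotientGroup.mk (⟨a, ha⟩ : ↥(K ⊔ T))) (QuotientGroup.mk (⟨b, hb⟩ : ↥(K ⊔ T)))
      have h2 : (QuotientGroup.mk (⁅(⟨a, ha⟩ : ↥(K ⊔ T)), ⟨b, hb⟩⁆) :
          ↥(K ⊔ T) ⧸ Cfsg.pCore 2 ↥(K ⊔ T)) = 1 := by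
        rw [commutatorElement_def, QuotientGroup.mk_mul, QuotientGroup.mk_mul, QuotientGroup.mk_mul,
          QuotientGroup.mk_inv, QuotientGroup.mk_inv, h1]
        group
      have h3 := (QuotientGroup.eq_one_iff _).mp h2
      have h4 := (hmemQ _).mp h3
      simpa [commutatorElement_def] using h4
    set k' : ↥(K ⊔ T) := ⟨k, hKP hkK⟩ with hk'
    set x' : ↥(K ⊔ T) := ⟨x, hTP hxT⟩ with hx'
    have e1 : (QuotientGroup.mk k' : ↥(K ⊔ T) ⧸ Cfsg.pCore 2 ↥(K ⊔ T)) ^ 3 = 1 := by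
      rw [← QuotientGroup.mk_pow]
      have : k' ^ 3 = 1 := Subtype.ext (by simpa using hk3)
      rw [this]
      rfl
    have e2 : (QuotientGroup.mk k' : ↥(K ⊔ T) ⧸ Cfsg.pCore 2 ↥(K ⊔ T)) ≠ 1 := by
      intro h
      have h3 := (QuotientGroup.eq_one_iff _).mp h
      have h4 : k ∈ pCoreOf 2 (K ⊔ T) := (hmemQ _).mp h3
      exact hk1 (h2grp _ hT2 k (hQT h4) hk3)
    have e3 : (QuotientGroup.mk x' : ↥(K ⊔ T) ⧸ Cfsg.pCore 2 ↥(K ⊔ T)) ^ 2 = 1 := by
      rw [← QuotientGroup.mk_pow, QuotientGroup.eq_one_iff, hmemQ]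
      have hxx : (⟨x, hxT⟩ : ↥T) * ⟨x, hxT⟩ ∈ (pCoreOf 2 (K ⊔ T)).subgroupOf T := by
        rw [Subgroup.mul_mem_iff_of_index_two hidx2]
      have hxx' : x * x ∈ pCoreOf 2 (K ⊔ T) := hxx
      simpa [pow_two] using hxx'
    have e4 : (QuotientGroup.mk x' : ↥(K ⊔ T) ⧸ Cfsg.pCore 2 ↥(K ⊔ T)) ≠ 1 := by
      intro h
      have h3 := (QuotientGroup.eq_one_iff _).mp h
      exact hxQ ((hmemQ _).mp h3)
    have hfin := inv_of_card_six h6 hna _ _ e1 e2 e3 e4
    have h5 : (QuotientGroup.mk (x' * k' * x'⁻¹ * k') :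
        ↥(K ⊔ T) ⧸ Cfsg.pCore 2 ↥(K ⊔ T)) = 1 := by
      rw [QuotientGroup.mk_mul, QuotientGroup.mk_mul, QuotientGroup.mk_mul, QuotientGroup.mk_inv]
      exact hfin
    have h6' := (hmemQ _).mp ((QuotientGroup.eq_one_iff _).mp h5)
    simpa using h6'

end Cfsg.Agent.H94.Jx

#print axioms Cfsg.Agent.H94.Jx.k3facts
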