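import Cfsg.Agent.H94.JxK3
import Cfsg.Agent.H48.JxSV
import Cfsg.Agent.H29.R1Out
import Cfsg.Agent.H52.JxDefs

/-!
# S2953 (kill sub-project JX), piece (X5) KB-NORM (helper94)

In the residual situation with `V ⊄ Q₁ = O₂(K' ⊔ T')`, every `x ∈ N_S(T')` normalizes `Q₁`:
the abstract core `Cfsg.Agent.H29.R1.r1_out_core` fed with helper48's V-facts (`vfacts`, `sv`)
and the P'-side facts `pfacts`, `k3facts`.
-/

set_option autoImplicit false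
set_option linter.style.haveILetI false
open Cfsg

universe u

namespace Cfsg.Agent.H94.Jx

open Cfsg.Agent.H64.Jz Cfsg.Agent.H64.Jy

/-- **JX-KBNORM**. -/
theorem kbNorm : Cfsg.Agent.H52.Jx.StKBNorm.{u} := by
  intro G _ _ S M K L T' K' L' hR hVQ x hxS hxT
  obtain ⟨hB, hNS, hB', hne⟩ := hR
  obtain ⟨hc4, hexp, hNV, ⟨z, hzV, hz1, hzZ, hzQ', hZall, htr⟩, hCent, hTI⟩ :=
    Cfsg.Agent.H48.Jy.vfacts S M K L T' K' L' hB hNS hB' hne
  obtain ⟨hsv, hQv, -, hzOL', hz2, hzS, hVS, hVT, hV2⟩ :=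
    Cfsg.Agent.H48.Jx.sv S M K L T' K' L' ⟨hB, hNS, hB', hne⟩ z hzZ hz1
  obtain ⟨hQT, hQ1, hPQ, hTP3, hQT2, hinf, hcoreP⟩ := pfacts S L T' K' L' hB'
  obtain ⟨⟨k, hkK, hk3, hk1⟩, hKgen, hinv⟩ := k3facts S L T' K' L' hB'
  obtain ⟨-, -, -, -, -, hPL', hsylL', -⟩ := Cfsg.Agent.H94.Jy.good_facts S L T' K' L' hB'
  obtain ⟨hsub, -⟩ := Cfsg.Agent.H61.Jk.base_facts S L T' K' L' hB'
  obtain ⟨v, hvV, hvQ⟩ := SetLike.not_le_iff_exists.mp hVQ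
  have hT'S : T' ≤ (S : Subgroup G) := hB'.2.2.2.2.2.1
  have hSL : (S : Subgroup G) ≤ L := Subgroup.le_normalizer.trans hNS
  have hK'L : ¬ K' ≤ L := hB'.2.2.2.2.2.2.1.2.1
  have hK'L' : K' ≤ L' := le_sup_left.trans hPL'
  have hTP : T' ≤ K' ⊔ T' := le_sup_right
  have hOLT : pCoreOf 2 L' ≤ T' := Cfsg.Agent.Helper55.J48.pCoreOf_le_of_sylowIn hsylL'
  have hOLP : pCoreOf 2 L' ≤ pCoreOf 2 (K' ⊔ T') :=
    Cfsg.Agent.H31.X.H54.le_pCoreOf (hOLT.trans hTP)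
      (hPL'.trans (Cfsg.Agent.H31.X.H54.le_normalizer_pCoreOf L'))
      (Cfsg.Agent.H31.X.H54.isPGroup_pCoreOf (p := 2) L')
  have hzQ : z ∈ pCoreOf 2 (K' ⊔ T') := hOLP hzOL'
  have hOKL : pCoreOf 2 K' ≤ L :=
    ((Cfsg.Agent.H54.Uq.o2sn K' L' hK'L' hsub).trans hOLT).trans (hT'S.trans hSL)
  have hvT : v ∈ T' := hVT hvV
  have hidx2 : ((pCoreOf 2 (K' ⊔ T')).subgroupOf T').index = 2 := hQT2
  have hTQv : ∀ t ∈ T', t ∈ pCoreOf 2 (K' ⊔ T') ∨ t * v ∈ pCoreOf 2 (K' ⊔ T') := by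
    intro t ht
    by_cases htQ : t ∈ pCoreOf 2 (K' ⊔ T')
    · exact Or.inl htQ
    · right
      have h : (⟨t, ht⟩ : ↥T') * ⟨v, hvT⟩ ∈ (pCoreOf 2 (K' ⊔ T')).subgroupOf T' := by
        rw [Subgroup.mul_mem_iff_of_index_two hidx2]
        constructor
        · intro h1
          exact absurd (Subgroup.mem_subgroupOf.mp h1) htQ
        · intro h1
          exact absurd (Subgroup.mem_subgroupOf.mp h1) hvQ
      exact h
  have hkz : k * z * k⁻¹ ≠ z := by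
    intro h
    have hkC : k ∈ Subgroup.centralizer ({z} : Set G) := by
      rw [Subgroup.mem_centralizer_iff]
      intro y hy
      rw [Set.mem_singleton_iff.mp hy]
      calc z * k = k * z * k⁻¹ * k := by rw [h]
        _ = k * z := by group
    exact hK'L (hKgen k hkK hk3 hk1 L hOKL (hCent z hzV hz1 hkC))
  have hkQ : ∀ q ∈ pCoreOf 2 (K' ⊔ T'), k * q * k⁻¹ ∈ pCoreOf 2 (K' ⊔ T') := by
    intro q hq
    exact (Subgroup.mem_normalizer_iff.mp (hPQ (le_sup_left (a := K') (b := T') hkK)) q).mp hq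
  have hvk' : v * k * v⁻¹ * k ∈ pCoreOf 2 (K' ⊔ T') := hinv k hkK hk3 v hvT hvQ
  have hcore : ∀ s ∈ (S : Subgroup G), s ∈ Subgroup.normalizer (T' : Set G) →
      ∀ q ∈ pCoreOf 2 (K' ⊔ T'), s * q * s⁻¹ ∈ pCoreOf 2 (K' ⊔ T') := by
    intro s hsS hsT
    exact Cfsg.Agent.H29.R1.r1_out_core T' (pCoreOf 2 (K' ⊔ T')) z v k s hQT hvT hTQv
      (hV2 v hvV) hz2 hzQ (fun t ht => hzS t (hT'S ht))
      (fun q hq => hQv v hvV q (hT'S (hQT hq))) hk3 hkz hkQ hvk'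
      (fun t ht => (Subgroup.mem_normalizer_iff.mp hsT t).mp ht) (hsv s hsS v hvV)
  rw [Subgroup.mem_normalizer_iff]
  intro h
  constructor
  · exact hcore x hxS hxT h
  · intro hh
    have h1 := hcore x⁻¹ (inv_mem hxS) (inv_mem hxT) _ hh
    have e : x⁻¹ * (x * h * x⁻¹) * x⁻¹⁻¹ = h := by group
    rwa [e] at h1

example : Cfsg.Agent.H52.Jx.StKBNorm.{u} := kbNorm

end Cfsg.Agent.H94.Jx

#print axioms Cfsg.Agent.H94.Jx.kbNorm
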