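import Cfsg.Agent.H94.JyGood
import Cfsg.Agent.H64.JyDefs

/-!
# S2953 (team project JY): JY-GOODA / GOODB / GOODC / GOOD in the exact shapes of `H64.JyDefs`
(helper94), from `Cfsg.Agent.H94.Jy.good_facts`.
-/

set_option autoImplicit false
open Cfsg

universe u

namespace Cfsg.Agent.H94.Jy

open Cfsg.Agent.H64.Jz Cfsg.Agent.H64.Jy

/-- JY-GOODA. -/
theorem goodA : StGoodA.{u} := by
  intro G _ _ S M T K L hB
  obtain ⟨h1, h2, -, -, -, h6, h7, h8⟩ := good_facts S M T K L hB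
  exact ⟨h1, h2, L, hB.2.2.2.2.2.2.2.1, h6, h7, h8⟩

/-- JY-GOODB. -/
theorem goodB : StGoodB.{u} := by
  intro G _ _ S M T K L hB
  obtain ⟨-, -, h3, h4, -, -⟩ := good_facts S M T K L hB
  exact ⟨h3, h4⟩

/-- JY-GOODC. -/
theorem goodC : StGoodC.{u} := by
  intro G _ _ S M T K L hB
  exact (good_facts S M T K L hB).2.2.2.2.1

/-- JY-GOOD. -/
theorem good : StGood.{u} := good_of goodA goodB goodC

example : Cfsg.Agent.H64.Jy.StGoodA.{u} := goodA
example : Cfsg.Agent.H64.Jy.StGoodB.{u} := goodB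
example : Cfsg.Agent.H64.Jy.StGoodC.{u} := goodC
example : Cfsg.Agent.H64.Jy.StGood.{u} := good

end Cfsg.Agent.H94.Jy

#print axioms Cfsg.Agent.H94.Jy.good
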