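import Mathlib
import Cfsg.Agent.H94.StemExp

/-!
# Splitting a central extension along a triply transitive action (helper94)

`inf_commutator_eq_bot_of_two_transitive`: let `σ : Γ → G` be a central extension, `K ≤ G` a
subgroup which lifts isomorphically to `Kh ≤ Γ`, `t` an involution of `G`, `K2 = K ∩ t K t` a
perfect subgroup, `K = K2 ∪ K2 k0 K2` and `G = K ∪ K t K`.  Then the lift of `K` extends to a
complement of the kernel in `Γ`; in particular the kernel meets the derived group trivially.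
-/

set_option autoImplicit false

namespace Cfsg.Agent.H94

open Cfsg
open scoped commutatorElement

/-- Two multiplicative lifts of a subgroup through a central extension agree on its derived
subgroup. -/
theorem lifts_eq_on_commutator {G Γ : Type*} [Group G] [Group Γ] (σ : Γ →* G)
    (hc : σ.ker ≤ Subgroup.center Γ) (H : Subgroup G) (L F : G → Γ)
    (hL : ∀ k ∈ H, σ (L k) = k) (hF : ∀ k ∈ H, σ (F k) = k)
    (hLm : ∀ k ∈ H, ∀ k' ∈ H, L (k * k') = L k * L k')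
    (hFm : ∀ k ∈ H, ∀ k' ∈ H, F (k * k') = F k * F k') :
    ∀ k ∈ ⁅H, H⁆, L k = F k := by
  have one_of : ∀ (f : G → Γ), (∀ k ∈ H, ∀ k' ∈ H, f (k * k') = f k * f k') → f 1 = 1 := by
    intro f hf
    have h := hf 1 H.one_mem 1 H.one_mem
    rw [mul_one] at h
    exact (mul_eq_left.1 h.symm)
  have inv_of : ∀ (f : G → Γ), (∀ k ∈ H, ∀ k' ∈ H, f (k * k') = f k * f k') →
      ∀ k ∈ H, f k⁻¹ = (f k)⁻¹ := by
    intro f hf k hk
    have h := hf k hk k⁻¹ (H.inv_mem hk)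
    rw [mul_inv_cancel, one_of f hf] at h
    exact (inv_eq_of_mul_eq_one_right h.symm).symm
  have comm_of : ∀ (f : G → Γ), (∀ k ∈ H, ∀ k' ∈ H, f (k * k') = f k * f k') →
      ∀ u ∈ H, ∀ v ∈ H, f ⁅u, v⁆ = ⁅f u, f v⁆ := by
    intro f hf u hu v hv
    rw [commutatorElement_def, commutatorElement_def,
      hf _ (H.mul_mem (H.mul_mem hu hv) (H.inv_mem hu)) _ (H.inv_mem hv),
      hf _ (H.mul_mem hu hv) _ (H.inv_mem hu), hf u hu v hv, inv_of f hf u hu, inv_of f hf v hv]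
  obtain ⟨M, hM⟩ : ∃ M : Subgroup G, ∀ k, k ∈ M ↔ k ∈ H ∧ L k = F k := by
    refine ⟨{ carrier := {k | k ∈ H ∧ L k = F k}
              mul_mem' := ?_
              one_mem' := ?_
              inv_mem' := ?_ }, fun k => Iff.rfl⟩
    · rintro a b ⟨ha, ha'⟩ ⟨hb, hb'⟩
      exact ⟨H.mul_mem ha hb, by rw [hLm a ha b hb, hFm a ha b hb, ha', hb']⟩
    · exact ⟨H.one_mem, by rw [one_of L hLm, one_of F hFm]⟩
    · rintro a ⟨ha, ha'⟩
      exact ⟨H.inv_mem ha, by rw [inv_of L hLm a ha, inv_of F hFm a ha, ha']⟩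
  have hle : ⁅H, H⁆ ≤ M := by
    rw [Subgroup.commutator_le]
    intro u hu v hv
    rw [hM]
    refine ⟨commutator_self_le H (Subgroup.commutator_mem_commutator hu hv), ?_⟩
    rw [comm_of L hLm u hu v hv, comm_of F hFm u hu v hv]
    have hcen : ∀ k ∈ H, ∃ a, (∀ g : Γ, g * a = a * g) ∧ F k = L k * a := by
      intro k hk
      refine ⟨(L k)⁻¹ * F k, ?_, by group⟩
      have hmem : (L k)⁻¹ * F k ∈ σ.ker := by
        rw [MonoidHom.mem_ker, map_mul, map_inv, hL k hk, hF k hk, inv_mul_cancel]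
      exact fun g => Subgroup.mem_center_iff.1 (hc hmem) g
    obtain ⟨a, ha, hFu⟩ := hcen u hu
    obtain ⟨b, hb, hFv⟩ := hcen v hv
    rw [hFu, hFv, commutatorElement_mul_central_left _ _ _ ha,
      commutatorElement_mul_central_right _ _ _ hb]
  intro k hk
  exact ((hM k).1 (hle hk)).2

theorem inf_commutator_eq_bot_of_two_transitive {G Γ : Type*} [Group G] [Group Γ] (σ : Γ →* G)
    (hσ : Function.Surjective σ) (hc : σ.ker ≤ Subgroup.center Γ)
    (K K2 : Subgroup G) (Kh : Subgroup Γ) (hKh1 : Kh ⊓ σ.ker = ⊥) (hKh2 : Kh.map σ = K)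
    (t k0 : G) (ht : t * t = 1)
    (hK2 : ∀ k, k ∈ K2 ↔ k ∈ K ∧ t * k * t ∈ K)
    (hperf : K2 ≤ ⁅K2, K2⁆)
    (hk0 : k0 ∈ K) (hk0' : k0 ∉ K2)
    (hb : ∀ k ∈ K, k ∉ K2 → ∃ u ∈ K2, ∃ v ∈ K2, k = u * k0 * v)
    (hcov : ∀ x : G, x ∉ K → ∃ k ∈ K, ∃ k' ∈ K, x = k * t * k') :
    σ.ker ⊓ commutator Γ = ⊥ := by
  have hK2K : K2 ≤ K := fun k hk => ((hK2 k).1 hk).1
  have htinv : t⁻¹ = t := inv_eq_of_mul_eq_one_right ht
  have htt : ∀ k : G, t * (t * k * t) * t = k := by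
    intro k
    have : t * (t * k * t) * t = (t * t) * k * (t * t) := by group
    rw [this, ht, one_mul, mul_one]
  have hcK2 : ∀ k ∈ K2, t * k * t ∈ K2 := by
    intro k hk
    rw [hK2]
    refine ⟨((hK2 k).1 hk).2, ?_⟩
    rw [htt]
    exact hK2K hk
  have htK : t ∉ K := by
    intro h
    apply hk0'
    rw [hK2]
    exact ⟨hk0, K.mul_mem (K.mul_mem h hk0) h⟩
  -- the lift of `K`
  have hex : ∀ k ∈ K, ∃ X, X ∈ Kh ∧ σ X = k := by
    intro k hk
    rw [← hKh2] at hk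
    obtain ⟨X, hX, hXk⟩ := hk
    exact ⟨X, hX, hXk⟩
  choose! L hL using hex
  have hinj : ∀ X ∈ Kh, ∀ Y ∈ Kh, σ X = σ Y → X = Y := by
    intro X hX Y hY h
    have h0 : X * Y⁻¹ ∈ σ.ker := by
      rw [MonoidHom.mem_ker, map_mul, map_inv, h, mul_inv_cancel]
    have h1 : X * Y⁻¹ ∈ Kh ⊓ σ.ker := Subgroup.mem_inf.2 ⟨Kh.mul_mem hX (Kh.inv_mem hY), h0⟩
    rw [hKh1, Subgroup.mem_bot] at h1
    exact mul_inv_eq_one.1 h1
  have hLσ : ∀ k ∈ K, σ (L k) = k := fun k hk => (hL k hk).2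
  have hLm : ∀ k ∈ K, ∀ k' ∈ K, L (k * k') = L k * L k' := by
    intro k hk k' hk'
    apply hinj _ (hL _ (K.mul_mem hk hk')).1 _ (Kh.mul_mem (hL k hk).1 (hL k' hk').1)
    rw [hLσ _ (K.mul_mem hk hk'), map_mul, hLσ k hk, hLσ k' hk']
  have hL1 : L 1 = 1 := by
    apply hinj _ (hL 1 K.one_mem).1 _ Kh.one_mem
    rw [hLσ 1 K.one_mem, map_one]
  have hLinv : ∀ k ∈ K, L k⁻¹ = (L k)⁻¹ := by
    intro k hk
    apply hinj _ (hL _ (K.inv_mem hk)).1 _ (Kh.inv_mem (hL k hk).1)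
    rw [hLσ _ (K.inv_mem hk), map_inv, hLσ k hk]
  -- conjugation by any lift of `t` is compatible with the lift on `K2`
  have claim2 : ∀ T : Γ, σ T = t → ∀ k ∈ K2, T * L k = L (t * k * t) * T := by
    intro T hT k hk
    have key := lifts_eq_on_commutator σ hc K2 L (fun k => T⁻¹ * L (t * k * t) * T)
      (fun k hk => hLσ k (hK2K hk))
      (fun k hk => by
        rw [map_mul, map_mul, map_inv, hT, hLσ _ (hK2K (hcK2 k hk)), htinv]
        exact htt k)
      (fun k hk k' hk' => hLm k (hK2K hk) k' (hK2K hk'))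
      (fun k hk k' hk' => by
        have e : t * (k * k') * t = (t * k * t) * (t * k' * t) := by
          have : (t * k * t) * (t * k' * t) = t * k * (t * t) * k' * t := by group
          rw [this, ht]
          group
        rw [e, hLm _ (hK2K (hcK2 k hk)) _ (hK2K (hcK2 k' hk'))]
        group)
      k (hperf hk)
    rw [key]
    group
  -- the good lift of `t`
  have htk0 : t * k0 * t ∉ K := fun h => hk0' ((hK2 k0).2 ⟨hk0, h⟩)
  obtain ⟨k1, hk1, k2, hk2, hrel⟩ := hcov _ htk0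
  obtain ⟨T, hT, h3⟩ : ∃ T : Γ, σ T = t ∧ T * L k0 * T = L k1 * T * L k2 := by
    obtain ⟨T0, hT0⟩ := hσ t
    have hak : (L k1 * T0 * L k2)⁻¹ * (T0 * L k0 * T0) ∈ σ.ker := by
      rw [MonoidHom.mem_ker, map_mul, map_inv, map_mul, map_mul, map_mul, map_mul, hT0,
        hLσ k0 hk0, hLσ k1 hk1, hLσ k2 hk2, hrel, inv_mul_cancel]
    obtain ⟨a, ha, haz⟩ : ∃ a ∈ σ.ker, T0 * L k0 * T0 = L k1 * T0 * L k2 * a :=
      ⟨_, hak, by group⟩
    have hcm : ∀ g : Γ, g * a⁻¹ = a⁻¹ * g := fun g =>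
      Subgroup.mem_center_iff.1 (hc (σ.ker.inv_mem ha)) g
    refine ⟨T0 * a⁻¹, ?_, ?_⟩
    · rw [map_mul, map_inv, MonoidHom.mem_ker.1 ha, inv_one, mul_one, hT0]
    · have e1 : T0 * a⁻¹ * L k0 * (T0 * a⁻¹) = T0 * (a⁻¹ * (L k0 * T0)) * a⁻¹ := by group
      rw [e1, ← hcm (L k0 * T0)]
      have e2 : T0 * (L k0 * T0 * a⁻¹) * a⁻¹ = (T0 * L k0 * T0) * a⁻¹ * a⁻¹ := by group
      rw [e2, haz]
      have e3 : L k1 * T0 * L k2 * a * a⁻¹ * a⁻¹ = L k1 * T0 * (L k2 * a⁻¹) := by group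
      rw [e3, hcm (L k2)]
      group
  have hcl := claim2 T hT
  -- `T * T = 1`
  have hTT : T * T = 1 := by
    have ha1 : T * T ∈ σ.ker := by rw [MonoidHom.mem_ker, map_mul, hT, ht]
    have hcm : ∀ g : Γ, g * (T * T) = (T * T) * g := fun g =>
      Subgroup.mem_center_iff.1 (hc ha1) g
    have hk0i : k0⁻¹ ∈ K := K.inv_mem hk0
    have hk0i' : k0⁻¹ ∉ K2 := fun h => hk0' (by simpa using K2.inv_mem h)
    obtain ⟨u, hu, v, hv, huv⟩ := hb _ hk0i hk0i'
    -- first expression of `T * L k0⁻¹ * T`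
    have h4 : T * L k0⁻¹ * T = (T * T) * ((L k2)⁻¹ * T * (L k1)⁻¹) := by
      have e1 : (T * L k0 * T)⁻¹ = (L k1 * T * L k2)⁻¹ := by rw [h3]
      have e2 : T * L k0⁻¹ * T = (T * T) * (T * L k0 * T)⁻¹ * (T * T) := by
        rw [hLinv k0 hk0]
        group
      have e3 : (L k1 * T * L k2)⁻¹ * (T * T) = (L k2)⁻¹ * T * (L k1)⁻¹ := by
        have : (L k1 * T * L k2)⁻¹ * (T * T) = (L k2)⁻¹ * T⁻¹ * ((L k1)⁻¹ * (T * T)) := by group
        rw [this, hcm (L k1)⁻¹]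
        group
      rw [e2, e1, mul_assoc, e3]
    -- second expression
    have h5 : T * L k0⁻¹ * T = L (t * u * t) * (L k1 * T * L k2) * L (t * v * t) := by
      have e1 : L k0⁻¹ = L u * L k0 * L v := by
        rw [huv, hLm _ (K.mul_mem (hK2K hu) hk0) _ (hK2K hv), hLm _ (hK2K hu) _ hk0]
      have e2 : L v * T = T * L (t * v * t) := by
        have := hcl (t * v * t) (hcK2 v hv)
        rw [htt] at this
        exact this.symm
      have e3 : T * (L u * L k0 * L v) * T = (T * L u) * L k0 * (L v * T) := by group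
      rw [e1, e3, hcl u hu, e2, ← h3]
      group
    -- the element `m`
    obtain ⟨m, hmdef⟩ : ∃ m, m = k2 * (t * u * t) * k1 := ⟨_, rfl⟩
    obtain ⟨m', hm'def⟩ : ∃ m', m' = k2 * (t * v * t) * k1 := ⟨_, rfl⟩
    have hmK : m ∈ K := by
      rw [hmdef]
      exact K.mul_mem (K.mul_mem hk2 (hK2K (hcK2 u hu))) hk1
    have hm'K : m' ∈ K := by
      rw [hm'def]
      exact K.mul_mem (K.mul_mem hk2 (hK2K (hcK2 v hv))) hk1
    have h6 : (T * T) * T = L m * T * L m' := by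
      have hLm1 : L m = L k2 * L (t * u * t) * L k1 := by
        rw [hmdef, hLm _ (K.mul_mem hk2 (hK2K (hcK2 u hu))) _ hk1, hLm _ hk2 _ (hK2K (hcK2 u hu))]
      have hLm2 : L m' = L k2 * L (t * v * t) * L k1 := by
        rw [hm'def, hLm _ (K.mul_mem hk2 (hK2K (hcK2 v hv))) _ hk1,
          hLm _ hk2 _ (hK2K (hcK2 v hv))]
      have e1 : (T * T) * T = L k2 * ((T * T) * ((L k2)⁻¹ * T * (L k1)⁻¹)) * L k1 := by
        have : L k2 * ((T * T) * ((L k2)⁻¹ * T * (L k1)⁻¹)) * L k1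
            = (L k2 * (T * T)) * ((L k2)⁻¹ * T * (L k1)⁻¹ * L k1) := by group
        rw [this, hcm (L k2)]
        group
      rw [e1, ← h4, h5, hLm1, hLm2]
      group
    have h7 : t = m * t * m' := by
      have := congrArg σ h6
      rwa [map_mul, MonoidHom.mem_ker.1 ha1, one_mul, map_mul, map_mul, hT, hLσ m hmK,
        hLσ m' hm'K] at this
    have h8 : t * m' * t = m⁻¹ := by
      have e : t * m' * t = m⁻¹ * (m * t * m') * t := by group
      rw [e, ← h7, mul_assoc, ht, mul_one]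
    have hm'K2 : m' ∈ K2 := by
      rw [hK2]
      refine ⟨hm'K, ?_⟩
      rw [h8]
      exact K.inv_mem hmK
    have h9 : T * L m' = (L m)⁻¹ * T := by
      rw [hcl m' hm'K2, h8, hLinv m hmK]
    have h10 : (T * T) * T = T := by
      rw [h6, mul_assoc, h9]
      group
    exact mul_eq_right.1 h10
  have hTinv : T⁻¹ = T := inv_eq_of_mul_eq_one_right hTT
  -- products `T * L k * T`
  have hTLT : ∀ k ∈ K, (∃ k' ∈ K, T * L k * T = L k') ∨
      (∃ p ∈ K, ∃ q ∈ K, T * L k * T = L p * T * L q) := by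
    intro k hk
    by_cases hk2' : k ∈ K2
    · left
      refine ⟨t * k * t, hK2K (hcK2 k hk2'), ?_⟩
      rw [hcl k hk2', mul_assoc, hTT, mul_one]
    · right
      obtain ⟨u, hu, v, hv, rfl⟩ := hb k hk hk2'
      refine ⟨t * u * t * k1, K.mul_mem (hK2K (hcK2 u hu)) hk1, k2 * (t * v * t),
        K.mul_mem hk2 (hK2K (hcK2 v hv)), ?_⟩
      have e2 : L v * T = T * L (t * v * t) := by
        have := hcl (t * v * t) (hcK2 v hv)
        rw [htt] at this
        exact this.symm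
      rw [hLm _ (K.mul_mem (hK2K hu) hk0) _ (hK2K hv), hLm _ (hK2K hu) _ hk0,
        hLm _ (hK2K (hcK2 u hu)) _ hk1, hLm _ hk2 _ (hK2K (hcK2 v hv))]
      have e3 : T * (L u * L k0 * L v) * T = (T * L u) * L k0 * (L v * T) := by group
      rw [e3, hcl u hu, e2]
      have e4 : L (t * u * t) * T * L k0 * (T * L (t * v * t))
          = L (t * u * t) * (T * L k0 * T) * L (t * v * t) := by group
      rw [e4, h3]
      group
  -- the complement
  obtain ⟨Γ0, hΓ0⟩ : ∃ Γ0 : Subgroup Γ, ∀ X, X ∈ Γ0 ↔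
      ((∃ k ∈ K, X = L k) ∨ (∃ k ∈ K, ∃ k' ∈ K, X = L k * T * L k')) := by
    refine ⟨{ carrier := {X | (∃ k ∈ K, X = L k) ∨ (∃ k ∈ K, ∃ k' ∈ K, X = L k * T * L k')}
              mul_mem' := ?_
              one_mem' := ?_
              inv_mem' := ?_ }, fun X => Iff.rfl⟩
    · rintro X Y (⟨a, ha, rfl⟩ | ⟨a, ha, b, hb', rfl⟩) (⟨c, hc', rfl⟩ | ⟨c, hc', d, hd, rfl⟩)
      · exact Or.inl ⟨a * c, K.mul_mem ha hc', (hLm a ha c hc').symm⟩
      · refine Or.inr ⟨a * c, K.mul_mem ha hc', d, hd, ?_⟩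
        rw [hLm a ha c hc']
        group
      · refine Or.inr ⟨a, ha, b * c, K.mul_mem hb' hc', ?_⟩
        rw [hLm b hb' c hc']
        group
      · have e : L a * T * L b * (L c * T * L d) = L a * (T * L (b * c) * T) * L d := by
          rw [hLm b hb' c hc']
          group
        rw [e]
        rcases hTLT (b * c) (K.mul_mem hb' hc') with ⟨k', hk', h⟩ | ⟨p, hp, q, hq, h⟩
        · refine Or.inl ⟨a * k' * d, K.mul_mem (K.mul_mem ha hk') hd, ?_⟩
          rw [h, hLm _ (K.mul_mem ha hk') _ hd, hLm a ha k' hk']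
        · refine Or.inr ⟨a * p, K.mul_mem ha hp, q * d, K.mul_mem hq hd, ?_⟩
          rw [h, hLm a ha p hp, hLm q hq d hd]
          group
    · exact Or.inl ⟨1, K.one_mem, hL1.symm⟩
    · rintro X (⟨a, ha, rfl⟩ | ⟨a, ha, b, hb', rfl⟩)
      · exact Or.inl ⟨a⁻¹, K.inv_mem ha, (hLinv a ha).symm⟩
      · refine Or.inr ⟨b⁻¹, K.inv_mem hb', a⁻¹, K.inv_mem ha, ?_⟩
        rw [hLinv a ha, hLinv b hb', mul_inv_rev, mul_inv_rev, hTinv, mul_assoc]
  have hΓ0A : Γ0 ⊓ σ.ker = ⊥ := by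
    rw [eq_bot_iff]
    rintro X ⟨hX, hXk⟩
    rw [Subgroup.mem_bot]
    rcases (hΓ0 X).1 hX with ⟨k, hk, rfl⟩ | ⟨k, hk, k', hk', rfl⟩
    · have h1 : k = 1 := by
        rw [← hLσ k hk]
        exact MonoidHom.mem_ker.1 hXk
      rw [h1, hL1]
    · exfalso
      apply htK
      have h1 : k * t * k' = 1 := by
        have := MonoidHom.mem_ker.1 hXk
        rwa [map_mul, map_mul, hT, hLσ k hk, hLσ k' hk'] at this
      have h2 : t = k⁻¹ * k'⁻¹ := by
        have : t = k⁻¹ * (k * t * k') * k'⁻¹ := by group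
        rw [this, h1, mul_one]
      rw [h2]
      exact K.mul_mem (K.inv_mem hk) (K.inv_mem hk')
  have hcover : ∀ X ∈ (⊤ : Subgroup Γ), ∃ w ∈ Γ0, ∃ a ∈ σ.ker, X = w * a := by
    intro X _
    have hw : ∃ w ∈ Γ0, σ w = σ X := by
      by_cases hX : σ X ∈ K
      · exact ⟨L (σ X), (hΓ0 _).2 (Or.inl ⟨σ X, hX, rfl⟩), hLσ _ hX⟩
      · obtain ⟨k, hk, k', hk', hrel'⟩ := hcov _ hX
        refine ⟨L k * T * L k', (hΓ0 _).2 (Or.inr ⟨k, hk, k', hk', rfl⟩), ?_⟩
        rw [map_mul, map_mul, hT, hLσ k hk, hLσ k' hk', hrel']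
    obtain ⟨w, hw, hwX⟩ := hw
    refine ⟨w, hw, w⁻¹ * X, ?_, by group⟩
    rw [MonoidHom.mem_ker, map_mul, map_inv, hwX, inv_mul_cancel]
  have := inf_commutator_eq_bot_of_cover σ.ker Γ0 ⊤ hc hΓ0A hcover
  rwa [← commutator_def] at this

end Cfsg.Agent.H94
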