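import Mathlib
import Cfsg.Agent.H94.Mult23
import Cfsg.Agent.H94.StemTrans
import Cfsg.Agent.H94.DMult24
import Cfsg.Agent.H94.OutFront
import Cfsg.Agent.S0377
import Cfsg.Agent.S0379

/-!
# The Schur multiplier of `M₂₄` is trivial (helper94)

A finite stem extension of `M₂₄` splits over the point stabiliser `M₂₃` (perfect with trivial
multiplier); the two-point stabiliser `M₂₂` is perfect and `M₂₄` is triply transitive, so the
extension splits (`inf_commutator_eq_bot_of_two_transitive`).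
-/

set_option autoImplicit false
set_option linter.style.haveILetI false

namespace Cfsg.Agent.H94

open Cfsg Cfsg.Agent.H9 Cfsg.Agent.H33 Cfsg.Agent.H41
open scoped Pointwise commutatorElement

theorem commutator_eq_top_of_simple {H : Type*} [Group H] [IsSimpleGroup H] (a b : H)
    (hab : a * b ≠ b * a) : commutator H = ⊤ := by
  rcases (Subgroup.commutator_normal (⊤ : Subgroup H) (⊤ : Subgroup H)).eq_bot_or_eq_top with h | h
  · exfalso
    apply hab
    have h1 : ⁅a, b⁆ ∈ ⁅(⊤ : Subgroup H), (⊤ : Subgroup H)⁆ :=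
      Subgroup.commutator_mem_commutator (Subgroup.mem_top a) (Subgroup.mem_top b)
    rw [h, Subgroup.mem_bot] at h1
    exact commutatorElement_eq_one_iff_mul_comm.1 h1
  · rw [commutator_def]
    exact h

theorem le_commutator_of_perfect {G : Type*} [Group G] (K : Subgroup G)
    (h : commutator ↥K = ⊤) : K ≤ ⁅K, K⁆ := by
  rw [← Subgroup.map_subtype_commutator, h]
  intro k hk
  exact ⟨⟨k, hk⟩, Subgroup.mem_top _, rfl⟩

/-! ### the subgroups -/

theorem gPt0' : gPt 0 = (some 0 : GolayPt) := by decide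

/-- the point stabiliser -/
def K24 : Subgroup ↥M24 := MulAction.stabilizer ↥M24 (none : GolayPt)

/-- the two-point stabiliser -/
def K22 : Subgroup ↥M24 :=
  MulAction.stabilizer ↥M24 (none : GolayPt) ⊓ MulAction.stabilizer ↥M24 (some 0 : GolayPt)

theorem mem_K24 {g : ↥M24} : g ∈ K24 ↔ (g : Equiv.Perm GolayPt) (gPt 23) = gPt 23 := by
  rw [gPt23']
  exact Iff.rfl

theorem mem_K22 {g : ↥M24} : g ∈ K22 ↔ (g : Equiv.Perm GolayPt) (gPt 23) = gPt 23 ∧
    (g : Equiv.Perm GolayPt) (gPt 0) = gPt 0 := by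
  rw [gPt23', gPt0']
  exact Iff.rfl

theorem K22_le : K22 ≤ K24 := fun _ hg => hg.1

/-- the elements -/
noncomputable def sM : ↥M24 := ⟨projInv, sE_mem⟩
noncomputable def kM : ↥M24 := ⟨tE, tE_mem⟩
noncomputable def yM : ↥M24 := ⟨yE, yE_mem⟩
noncomputable def dM : ↥M24 := ⟨cubeTwist, dE_mem⟩

theorem yM_mem : yM ∈ K22 :=
  mem_K22.2 ⟨(rep_apply rY (by norm_num)).trans (congrArg gPt (by decide +kernel)),
    (rep_apply rY (by norm_num)).trans (congrArg gPt (by decide +kernel))⟩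

theorem dM_mem : dM ∈ K22 :=
  mem_K22.2 ⟨(rep_apply rD (by norm_num)).trans (congrArg gPt (by decide +kernel)),
    (rep_apply rD (by norm_num)).trans (congrArg gPt (by decide +kernel))⟩

theorem dy_ne : cubeTwist * yE ≠ yE * cubeTwist := by
  intro h
  have h1 : relN o24Y o24Y o24D = true := relN_of rY rY rD h
  revert h1
  decide +kernel

theorem perf_K22 : K22 ≤ ⁅K22, K22⁆ := by
  haveI : IsSimpleGroup ↥K22 := Cfsg.Agent.S0379.result none (some 0) (by decide)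
  apply le_commutator_of_perfect
  apply commutator_eq_top_of_simple (⟨dM, dM_mem⟩ : ↥K22) ⟨yM, yM_mem⟩
  intro h
  exact dy_ne (congrArg (fun x : ↥K22 => ((x : ↥M24) : Equiv.Perm GolayPt)) h)

theorem perf_K24 : K24 ≤ ⁅K24, K24⁆ := by
  haveI : IsSimpleGroup ↥K24 := Cfsg.Agent.S0377.result none
  apply le_commutator_of_perfect
  apply commutator_eq_top_of_simple (⟨dM, K22_le dM_mem⟩ : ↥K24) ⟨yM, K22_le yM_mem⟩
  intro h
  exact dy_ne (congrArg (fun x : ↥K24 => ((x : ↥M24) : Equiv.Perm GolayPt)) h)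

/-- the point stabiliser is `M₂₃` -/
def e23 : ↥K24 ≃* ↥Spor.M23 where
  toFun g := ⟨g.1.1, ⟨g.1.2, g.2⟩⟩
  invFun h := ⟨⟨h.1, h.2.1⟩, h.2.2⟩
  left_inv _ := rfl
  right_inv _ := rfl
  map_mul' _ _ := rfl

theorem e23_val (g : ↥K24) : ((e23 g : ↥Spor.M23) : Equiv.Perm GolayPt) = g.1.1 := rfl

/-! ### the facts on the action -/

theorem s_23 : projInv (gPt 23) = gPt 0 :=
  (rep_apply rS (by norm_num)).trans (congrArg gPt (by decide +kernel))

theorem s_0 : projInv (gPt 0) = gPt 23 :=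
  (rep_apply rS (by norm_num)).trans (congrArg gPt (by decide +kernel))

theorem sM_sq : sM * sM = 1 :=
  Subtype.ext (eq_one_of_isIdP (rep_mulN rS rS) (by decide +kernel))

theorem hK22 : ∀ k : ↥M24, k ∈ K22 ↔ k ∈ K24 ∧ sM * k * sM ∈ K24 := by
  intro k
  rw [mem_K22, mem_K24, mem_K24]
  have e : ((sM * k * sM : ↥M24) : Equiv.Perm GolayPt) (gPt 23)
      = projInv ((k : Equiv.Perm GolayPt) (projInv (gPt 23))) := rfl
  rw [e, s_23]
  constructor
  · rintro ⟨h1, h2⟩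
    exact ⟨h1, by rw [h2, s_0]⟩
  · rintro ⟨h1, h2⟩
    refine ⟨h1, ?_⟩
    rw [← s_0] at h2
    exact projInv.injective h2

theorem kM_mem : kM ∈ K24 :=
  mem_K24.2 ((rep_apply rT (by norm_num)).trans (congrArg gPt (by decide +kernel)))

theorem t_0 : tE (gPt 0) = gPt 1 :=
  (rep_apply rT (by norm_num)).trans (congrArg gPt (by decide +kernel))

theorem gPt_inj : ∀ i < 24, ∀ j < 24, gPt i = gPt j → i = j := by
  intro i hi j hj h
  have := congrArg gIdx h
  rwa [gIdx_gPt hi, gIdx_gPt hj] at this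

theorem kM_not : kM ∉ K22 := by
  intro h
  have h1 := (mem_K22.1 h).2
  have h2 : tE (gPt 0) = gPt 0 := h1
  rw [t_0] at h2
  exact absurd (gPt_inj 1 (by norm_num) 0 (by norm_num) h2) (by norm_num)

/-- the elements of the two-point stabiliser mapping `1` to `c` -/
noncomputable def uM (c : ℕ) : ↥M24 :=
  ⟨(mk23 (fldG m24U c) (fldG m24UI c) : Equiv.Perm GolayPt),
    (mk23 (fldG m24U c) (fldG m24UI c)).2.1⟩

theorem uOK : allB (fun c => Nat.beq c 0 || (ok23 (fldG m24U c) (fldG m24UI c) &&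
    (Nat.beq (lk (fldG m24U c) 0) 0 && Nat.beq (lk (fldG m24U c) 1) c))) 23 = true := by
  decide +kernel

theorem uM_spec {c : ℕ} (hc : c < 23) (h0 : c ≠ 0) :
    uM c ∈ K22 ∧ (uM c : Equiv.Perm GolayPt) (gPt 1) = gPt c := by
  have h := (allB_iff _ _).mp uOK c hc
  rw [Bool.or_eq_true] at h
  rcases h with h | h
  · exact absurd (Nat.eq_of_beq_eq_true h) h0
  · simp only [Bool.and_eq_true] at h
    obtain ⟨hok, h1, h2⟩ := h
    have hrep : Rep (fldG m24U c) (uM c : Equiv.Perm GolayPt) := rep_mk23 hok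
    refine ⟨mem_K22.2 ⟨?_, ?_⟩, ?_⟩
    · exact (rep_apply hrep (by norm_num)).trans (congrArg gPt (ok23_spec hok).2.2)
    · exact (rep_apply hrep (by norm_num)).trans (congrArg gPt (Nat.eq_of_beq_eq_true h1))
    · exact (rep_apply hrep (by norm_num)).trans (congrArg gPt (Nat.eq_of_beq_eq_true h2))

theorem hb24 : ∀ k ∈ K24, k ∉ K22 → ∃ u ∈ K22, ∃ v ∈ K22, k = u * kM * v := by
  intro k hk hk'
  have hk23 : (k : Equiv.Perm GolayPt) (gPt 23) = gPt 23 := mem_K24.1 hk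
  obtain ⟨c, hcdef⟩ : ∃ c, c = gIdx ((k : Equiv.Perm GolayPt) (gPt 0)) := ⟨_, rfl⟩
  have hc24 : c < 24 := by rw [hcdef]; exact gIdx_lt _
  have hkc : (k : Equiv.Perm GolayPt) (gPt 0) = gPt c := by rw [hcdef, gPt_gIdx]
  have hc0 : c ≠ 0 := by
    intro h
    rw [h] at hkc
    exact hk' (mem_K22.2 ⟨hk23, hkc⟩)
  have hc23 : c ≠ 23 := by
    intro h
    rw [h, ← hk23] at hkc
    exact absurd (gPt_inj 0 (by norm_num) 23 (by norm_num)
      ((k : Equiv.Perm GolayPt).injective hkc)) (by norm_num)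
  have hc : c < 23 := by omega
  obtain ⟨hu, hu1⟩ := uM_spec hc hc0
  have huk : ((uM c * kM : ↥M24) : Equiv.Perm GolayPt) (gPt 0) = gPt c := by
    show (uM c : Equiv.Perm GolayPt) (tE (gPt 0)) = gPt c
    rw [t_0, hu1]
  refine ⟨uM c, hu, (uM c * kM)⁻¹ * k, ?_, by group⟩
  have hv24 : (uM c * kM)⁻¹ * k ∈ K24 :=
    K24.mul_mem (K24.inv_mem (K24.mul_mem (K22_le hu) kM_mem)) hk
  refine mem_K22.2 ⟨mem_K24.1 hv24, ?_⟩
  show ((uM c * kM : ↥M24) : Equiv.Perm GolayPt)⁻¹ ((k : Equiv.Perm GolayPt) (gPt 0)) = gPt 0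
  rw [hkc, ← huk]
  exact Equiv.symm_apply_apply _ _

theorem tPowB : allB (fun c => Nat.beq (lk (pwN o24T c) 0) c) 23 = true := by decide +kernel

theorem hcov24 : ∀ x : ↥M24, x ∉ K24 → ∃ k ∈ K24, ∃ k' ∈ K24, x = k * sM * k' := by
  intro x hx
  obtain ⟨c, hcdef⟩ : ∃ c, c = gIdx ((x : Equiv.Perm GolayPt) (gPt 23)) := ⟨_, rfl⟩
  have hc24 : c < 24 := by rw [hcdef]; exact gIdx_lt _
  have hxc : (x : Equiv.Perm GolayPt) (gPt 23) = gPt c := by rw [hcdef, gPt_gIdx]
  have hc23 : c ≠ 23 := by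
    intro h
    rw [h] at hxc
    exact hx (mem_K24.2 hxc)
  have hc : c < 23 := by omega
  have hkc : ((kM ^ c * sM : ↥M24) : Equiv.Perm GolayPt) (gPt 23) = gPt c := by
    show ((kM ^ c : ↥M24) : Equiv.Perm GolayPt) (projInv (gPt 23)) = gPt c
    rw [s_23, Subgroup.coe_pow]
    exact (rep_apply (rep_pwN rT c) (by norm_num)).trans
      (congrArg gPt (Nat.eq_of_beq_eq_true ((allB_iff _ _).mp tPowB c hc)))
  refine ⟨kM ^ c, K24.pow_mem kM_mem c, (kM ^ c * sM)⁻¹ * x, ?_, by group⟩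
  apply mem_K24.2
  show ((kM ^ c * sM : ↥M24) : Equiv.Perm GolayPt)⁻¹ ((x : Equiv.Perm GolayPt) (gPt 23)) = gPt 23
  rw [hxc, ← hkc]
  exact Equiv.symm_apply_apply _ _

/-! ### the multiplier -/

/-- Every finite stem extension of `M₂₄` is trivial. -/
theorem m24_stem_trivial (Γ : Type) [Group Γ] [Finite Γ] (σ : Γ →* ↥M24)
    (hσ : IsStemExtension σ) : σ.ker = ⊥ := by
  obtain ⟨hs, hc, hd⟩ := hσ
  obtain ⟨Kh, hKh⟩ : ∃ Kh : Subgroup Γ, Kh = ⁅K24.comap σ, K24.comap σ⁆ := ⟨_, rfl⟩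
  have hmap : Kh.map σ = K24 := by
    rw [hKh, Subgroup.map_commutator, Subgroup.map_comap_eq_self_of_surjective hs]
    exact le_antisymm (commutator_self_le K24) perf_K24
  have hKhle : Kh ≤ K24.comap σ := by
    rw [hKh]
    exact commutator_self_le _
  have hcover : ∀ X ∈ K24.comap σ, ∃ w ∈ Kh, ∃ a ∈ σ.ker, X = w * a := by
    intro X hX
    have h1 : σ X ∈ Kh.map σ := by
      rw [hmap]
      exact hX
    obtain ⟨w, hw, hwX⟩ := h1
    exact ⟨w, hw, w⁻¹ * X, by rw [MonoidHom.mem_ker, map_mul, map_inv, hwX, inv_mul_cancel],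
      by group⟩
  have hperfKh : Kh ≤ ⁅Kh, Kh⁆ := by
    have h1 : ⁅K24.comap σ, K24.comap σ⁆ ≤ ⁅Kh, Kh⁆ := by
      rw [Subgroup.commutator_le]
      intro X hX Y hY
      obtain ⟨w, hw, a, ha, rfl⟩ := hcover X hX
      obtain ⟨w', hw', a', ha', rfl⟩ := hcover Y hY
      rw [commutatorElement_mul_central_left _ _ _
          (fun g => Subgroup.mem_center_iff.1 (hc ha) g),
        commutatorElement_mul_central_right _ _ _
          (fun g => Subgroup.mem_center_iff.1 (hc ha') g)]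
      exact Subgroup.commutator_mem_commutator hw hw'
    rw [← hKh] at h1
    exact h1
  -- the induced stem extension of `M₂₃`
  obtain ⟨τ, hτ⟩ : ∃ τ : ↥Kh →* ↥Spor.M23, ∀ X : ↥Kh,
      ((τ X : ↥Spor.M23) : Equiv.Perm GolayPt) = ((σ X.1 : ↥M24) : Equiv.Perm GolayPt) :=
    ⟨e23.toMonoidHom.comp ((σ.subgroupComap K24).comp (Subgroup.inclusion hKhle)), fun X => rfl⟩
  have hτ1 : ∀ X : ↥Kh, τ X = 1 ↔ σ X.1 = 1 := by
    intro X
    constructor
    · intro h
      apply Subtype.ext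
      rw [← hτ, h]
      rfl
    · intro h
      apply Subtype.ext
      rw [hτ, h]
      rfl
  have hτs : Function.Surjective τ := by
    intro y
    have hk : (⟨y.1, y.2.1⟩ : ↥M24) ∈ Kh.map σ := by
      rw [hmap]
      exact y.2.2
    obtain ⟨X, hX, hXy⟩ := hk
    refine ⟨⟨X, hX⟩, ?_⟩
    apply Subtype.ext
    rw [hτ]
    show ((σ X : ↥M24) : Equiv.Perm GolayPt) = y.1
    rw [hXy]
  have hτc : τ.ker ≤ Subgroup.center ↥Kh := by
    intro X hX
    have h1 : X.1 ∈ σ.ker := MonoidHom.mem_ker.2 ((hτ1 X).1 (MonoidHom.mem_ker.1 hX))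
    rw [Subgroup.mem_center_iff]
    intro g
    exact Subtype.ext (Subgroup.mem_center_iff.1 (hc h1) g.1)
  have hτd : τ.ker ≤ commutator ↥Kh := by
    have h1 : (commutator ↥Kh).map Kh.subtype = Kh := by
      rw [Subgroup.map_subtype_commutator]
      exact le_antisymm (commutator_self_le Kh) hperfKh
    have h2 : commutator ↥Kh = ⊤ := by
      rw [eq_top_iff]
      intro X _
      have hX : X.1 ∈ (commutator ↥Kh).map Kh.subtype := by
        rw [h1]
        exact X.2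
      obtain ⟨X', hX', hXX'⟩ := hX
      have : X' = X := Subtype.ext hXX'
      rw [← this]
      exact hX'
    rw [h2]
    exact le_top
  have hker := m23_stem_trivial ↥Kh τ ⟨hτs, hτc, hτd⟩
  have hKh1 : Kh ⊓ σ.ker = ⊥ := by
    rw [eq_bot_iff]
    rintro X ⟨hX, hXk⟩
    have h1 : (⟨X, hX⟩ : ↥Kh) ∈ τ.ker :=
      MonoidHom.mem_ker.2 ((hτ1 ⟨X, hX⟩).2 (MonoidHom.mem_ker.1 hXk))
    rw [hker, Subgroup.mem_bot] at h1
    rw [Subgroup.mem_bot]
    exact congrArg Subtype.val h1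
  have key := inf_commutator_eq_bot_of_two_transitive σ hs hc K24 K22 Kh hKh1 hmap sM kM sM_sq
    hK22 perf_K22 kM_mem kM_not hb24 hcov24
  rw [eq_bot_iff]
  intro z hz
  have h1 : z ∈ σ.ker ⊓ commutator Γ := ⟨hz, hd hz⟩
  rwa [key] at h1

theorem m24_multiplier : HasCyclicSchurMultiplier ↥M24 1 :=
  hasCyclicSchurMultiplier_one_of_ker m24_stem_trivial

end Cfsg.Agent.H94
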