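import Cfsg.Agent.H94.ObjTransData

/-!
# Orbit decompositions on octads, trios and sextets (helper94)

* `exists_smul_trio0`, `exists_smul_sext0`: `M24` is transitive on trios and on sextets.
* `decomp_oct`, `decomp_trio`, `decomp_sext`: `decomp_of_forest` specialised to the three canonical
  enumerations, with the invariant `inv2 (objOf LY) ·`.
-/

set_option autoImplicit false

namespace Cfsg.Agent.H94

open Cfsg Cfsg.Agent.H9 Cfsg.Agent.H33
open scoped Pointwise

/-! ### transitivity of `M24` on trios and sextets -/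

theorem m3G_ok : chkGens m3G m3GI m3Ng [] = true := by decide +kernel

theorem trT_ok : chkForest trioStep m3G m3Ng trTF 3795 [0] = true := by decide +kernel

theorem sxT_ok : chkForest sextStep m3G m3Ng sxTF 1771 [0] = true := by decide +kernel

theorem exists_smul_trio0 {T : Finset (Finset GolayPt)} (hT : T ∈ trios) :
    ∃ g ∈ M24, g • trioObj 0 = T := by
  obtain ⟨k, hk, rfl⟩ := trio_enum T hT
  obtain ⟨hlt, g, hg, e⟩ := forest_sound (stabOf []) trioObj trioStep 3795
    (fun P g p k hg hrep hp hk hs => trioStep_sound hg.1 hrep hp hk hs)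
    m3G m3Ng trTF [0] (gens_sound m3G_ok) trT_ok k hk
  have h0 : fcls trTF k = 0 := by
    have : fcls trTF k < 1 := hlt
    omega
  rw [h0] at e
  exact ⟨g, hg.1, e⟩

theorem exists_smul_sext0 {S : Finset (Finset GolayPt)} (hS : S ∈ sextets) :
    ∃ g ∈ M24, g • sextObj 0 = S := by
  obtain ⟨k, hk, rfl⟩ := sext_enum S hS
  obtain ⟨hlt, g, hg, e⟩ := forest_sound (stabOf []) sextObj sextStep 1771
    (fun P g p k hg hrep hp hk hs => sextStep_sound hg.1 hrep hp hk hs)
    m3G m3Ng sxTF [0] (gens_sound m3G_ok) sxT_ok k hk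
  have h0 : fcls sxTF k = 0 := by
    have : fcls sxTF k < 1 := hlt
    omega
  rw [h0] at e
  exact ⟨g, hg.1, e⟩

/-! ### separation from a list of values -/

theorem sep_of_vals {Ω' : Type*} (inv : Ω' → ℕ) (obj : ℕ → Ω') (n : ℕ) (roots V : List ℕ)
    (hlen : V.length = roots.length) (hnd : V.Nodup)
    (hV : ∀ c < roots.length, inv (obj (roots.getD c n)) = V.getD c 0) :
    ∀ c < roots.length, ∀ c' < roots.length,
      inv (obj (roots.getD c n)) = inv (obj (roots.getD c' n)) → c = c' := by
  intro c hc c' hc' h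
  rw [hV c hc, hV c' hc', List.getD_eq_getElem _ _ (hlen ▸ hc),
    List.getD_eq_getElem _ _ (hlen ▸ hc')] at h
  exact (List.Nodup.getElem_inj_iff hnd).mp h

/-! ### the three specialisations -/

section

variable {Ω : Type*} [MulAction (Equiv.Perm GolayPt) Ω]

theorem decomp_trio (X : Ω) (LY : List ℕ) (hLY : okList LY)
    (hY : ∀ g ∈ M24, g • X = X → g • objOf LY = objOf LY)
    (S : Subgroup (Equiv.Perm GolayPt)) (hS : ∀ g ∈ S, g ∈ M24 ∧ g • X = X)
    (G ng F : ℕ) (roots V Nl : List ℕ)
    (hG : ∀ i < ng, ∃ g ∈ S, Rep (fldG G i) g)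
    (hF : chkForest trioStep G ng F 3795 roots = true)
    (hroots : ∀ r ∈ roots, r < 3795)
    (hlen : V.length = roots.length) (hnd : V.Nodup)
    (hV : ∀ c < roots.length, inv2L LY (trioL (roots.getD c 3795)) = V.getD c 0)
    (hN : ∀ c < roots.length, countB (fun k => Nat.beq (fcls F k) c) 3795 = Nl.getD c 0) :
    Decomp X trios roots.length (fun c => Nl.getD c 0) := by
  have hrt : ∀ c < roots.length, roots.getD c 3795 < 3795 := by
    intro c hc
    apply hroots
    rw [List.getD_eq_getElem _ _ hc]
    exact List.getElem_mem hc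
  exact decomp_of_forest X trios (fun g hg z hz => smul_mem_trios hg hz) S hS trioObj 3795
    trio_enum trio_mem trio_inj trioStep
    (fun P g p k hg hrep hp hk hs => trioStep_sound (hS g hg).1 hrep hp hk hs)
    G ng F roots hG hF hroots (fun z => inv2 (objOf LY) z)
    (fun g hg hgX z => by
      have h1 : inv2 (objOf LY) (g • z) = inv2 (g • objOf LY) (g • z) := by rw [hY g hg hgX]
      rw [h1, inv2_smul])
    (sep_of_vals (fun z => inv2 (objOf LY) z) trioObj 3795 roots V hlen hnd (fun c hc => by
      show inv2 (objOf LY) (objOf (trioL (roots.getD c 3795))) = V.getD c 0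
      rw [inv2_objOf hLY (trioL_ok _ (hrt c hc))]
      exact hV c hc))
    _ hN

theorem decomp_sext (X : Ω) (LY : List ℕ) (hLY : okList LY)
    (hY : ∀ g ∈ M24, g • X = X → g • objOf LY = objOf LY)
    (S : Subgroup (Equiv.Perm GolayPt)) (hS : ∀ g ∈ S, g ∈ M24 ∧ g • X = X)
    (G ng F : ℕ) (roots V Nl : List ℕ)
    (hG : ∀ i < ng, ∃ g ∈ S, Rep (fldG G i) g)
    (hF : chkForest sextStep G ng F 1771 roots = true)
    (hroots : ∀ r ∈ roots, r < 1771)
    (hlen : V.length = roots.length) (hnd : V.Nodup)
    (hV : ∀ c < roots.length, inv2L LY (sextL (roots.getD c 1771)) = V.getD c 0)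
    (hN : ∀ c < roots.length, countB (fun k => Nat.beq (fcls F k) c) 1771 = Nl.getD c 0) :
    Decomp X sextets roots.length (fun c => Nl.getD c 0) := by
  have hrt : ∀ c < roots.length, roots.getD c 1771 < 1771 := by
    intro c hc
    apply hroots
    rw [List.getD_eq_getElem _ _ hc]
    exact List.getElem_mem hc
  exact decomp_of_forest X sextets (fun g hg z hz => smul_mem_sextets hg hz) S hS sextObj 1771
    sext_enum sext_mem sext_inj sextStep
    (fun P g p k hg hrep hp hk hs => sextStep_sound (hS g hg).1 hrep hp hk hs)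
    G ng F roots hG hF hroots (fun z => inv2 (objOf LY) z)
    (fun g hg hgX z => by
      have h1 : inv2 (objOf LY) (g • z) = inv2 (g • objOf LY) (g • z) := by rw [hY g hg hgX]
      rw [h1, inv2_smul])
    (sep_of_vals (fun z => inv2 (objOf LY) z) sextObj 1771 roots V hlen hnd (fun c hc => by
      show inv2 (objOf LY) (objOf (sextL (roots.getD c 1771))) = V.getD c 0
      rw [inv2_objOf hLY (sextL_ok _ (hrt c hc))]
      exact hV c hc))
    _ hN

theorem objOf_singleton (m : ℕ) : objOf [m] = {fs m} := by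
  simp [objOf]

theorem okList_singleton {m : ℕ} (h : m < 2 ^ 24) : okList [m] := by
  refine ⟨?_, List.nodup_singleton m⟩
  intro m' hm'
  rw [List.mem_singleton] at hm'
  rw [hm']
  exact h

theorem decomp_oct (X : Ω) (LY : List ℕ) (hLY : okList LY)
    (hY : ∀ g ∈ M24, g • X = X → g • objOf LY = objOf LY)
    (S : Subgroup (Equiv.Perm GolayPt)) (hS : ∀ g ∈ S, g ∈ M24 ∧ g • X = X)
    (G ng F : ℕ) (roots V Nl : List ℕ)
    (hG : ∀ i < ng, ∃ g ∈ S, Rep (fldG G i) g)
    (hF : chkForest octStep G ng F 759 roots = true)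
    (hroots : ∀ r ∈ roots, r < 759)
    (hlen : V.length = roots.length) (hnd : V.Nodup)
    (hV : ∀ c < roots.length, inv2L LY [fld octC (roots.getD c 759)] = V.getD c 0)
    (hN : ∀ c < roots.length, countB (fun k => Nat.beq (fcls F k) c) 759 = Nl.getD c 0) :
    Decomp X octads roots.length (fun c => Nl.getD c 0) := by
  exact decomp_of_forest X octads (fun g hg z hz => m24_smul_mem_octads hg hz) S hS octObj 759
    oct_enum oct_mem oct_inj octStep
    (fun P g p k hg hrep hp hk hs => octStep_sound hrep hs)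
    G ng F roots hG hF hroots (fun z => inv2 (objOf LY) {z})
    (fun g hg hgX z => by
      have h1 : inv2 (objOf LY) {g • z} = inv2 (g • objOf LY) (g • {z}) := by
        rw [hY g hg hgX, Finset.smul_finset_singleton]
      rw [h1, inv2_smul])
    (sep_of_vals (fun z => inv2 (objOf LY) {z}) octObj 759 roots V hlen hnd (fun c hc => by
      show inv2 (objOf LY) {fs (fld octC (roots.getD c 759))} = V.getD c 0
      rw [← objOf_singleton, inv2_objOf hLY (okList_singleton (fld_lt _ _))]
      exact hV c hc))
    _ hN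

end

end Cfsg.Agent.H94
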