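import Cfsg.Agent.H94.ObjDecomp

/-!
# Fibres of a separating invariant from a forest (helper94)

* `fiber_of_forest`: with the data of `decomp_of_forest` and the values `V` of the invariant at the
  roots: the fibres of the invariant on `Z` have the sizes `N c`, every member of `Z` lies in one
  of them, and two members of `Z` with the same invariant are conjugate under the stabiliser.
* `nu Y S`: the number of members of the family `S` meeting the set `Y`, with its list version.
-/

set_option autoImplicit false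

namespace Cfsg.Agent.H94

open Cfsg Cfsg.Agent.H9 Cfsg.Agent.H33
open scoped Pointwise

section

variable {Ω Ω' : Type*} [MulAction (Equiv.Perm GolayPt) Ω] [MulAction (Equiv.Perm GolayPt) Ω']

theorem fiber_of_forest (X : Ω) (Z : Set Ω') (hZ : ∀ g ∈ M24, ∀ z ∈ Z, g • z ∈ Z)
    (S : Subgroup (Equiv.Perm GolayPt)) (hS : ∀ g ∈ S, g ∈ M24 ∧ g • X = X)
    (obj : ℕ → Ω') (n : ℕ) (hsurj : ∀ z ∈ Z, ∃ k < n, obj k = z) (hmem : ∀ k < n, obj k ∈ Z)
    (hinj : ∀ j < n, ∀ k < n, obj j = obj k → j = k)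
    (step : ℕ → ℕ → ℕ → Bool)
    (hstep : ∀ P g p k, g ∈ S → Rep P g → p < n → k < n → step P p k = true →
      g • obj p = obj k)
    (G ng F : ℕ) (roots : List ℕ) (hG : ∀ i < ng, ∃ g ∈ S, Rep (fldG G i) g)
    (hF : chkForest step G ng F n roots = true) (hroots : ∀ r ∈ roots, r < n)
    (inv : Ω' → ℕ) (hinv : ∀ g ∈ M24, g • X = X → ∀ z, inv (g • z) = inv z)
    (V Nl : List ℕ) (hlen : V.length = roots.length) (hnd : V.Nodup)
    (hV : ∀ c < roots.length, inv (obj (roots.getD c n)) = V.getD c 0)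
    (hN : ∀ c < roots.length, countB (fun k => Nat.beq (fcls F k) c) n = Nl.getD c 0) :
    (∀ c < roots.length, {z | z ∈ Z ∧ inv z = V.getD c 0}.ncard = Nl.getD c 0) ∧
    (∀ z ∈ Z, ∃ c < roots.length, inv z = V.getD c 0) ∧
    (∀ z ∈ Z, ∀ z' ∈ Z, inv z = inv z' → ∃ g ∈ M24, g • X = X ∧ g • z = z') := by
  have hfs := forest_sound S obj step n hstep G ng F roots hG hF
  have hrt : ∀ c < roots.length, roots.getD c n < n := by
    intro c hc
    apply hroots
    rw [List.getD_eq_getElem _ _ hc]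
    exact List.getElem_mem hc
  have hsep := sep_of_vals inv obj n roots V hlen hnd hV
  obtain ⟨h1, h2⟩ := orbit_decomp (H := ↥(MulAction.stabilizer M24 X)) Z
    (by
      rintro ⟨⟨g, hg⟩, hgX⟩ z hz
      exact hZ g hg z hz)
    n obj hsurj hmem hinj roots.length (fun k => fcls F k) (fun c => roots.getD c n) hrt
    (by
      intro k hk
      obtain ⟨hlt, g, hg, e⟩ := hfs k hk
      refine ⟨hlt, ?_⟩
      rw [mem_orbit_stab]
      exact ⟨g, (hS g hg).1, (hS g hg).2, e⟩)
    inv
    (by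
      rintro ⟨⟨g, hg⟩, hgX⟩ z
      exact hinv g hg hgX z)
    hsep
  have hinvorb : ∀ c < roots.length, ∀ z,
      z ∈ MulAction.orbit ↥(MulAction.stabilizer M24 X) (obj (roots.getD c n)) →
      inv z = V.getD c 0 := by
    intro c hc z hz
    rw [mem_orbit_stab] at hz
    obtain ⟨g, hg, hgX, rfl⟩ := hz
    rw [hinv g hg hgX, hV c hc]
  have hVinj : ∀ c < roots.length, ∀ c' < roots.length, V.getD c 0 = V.getD c' 0 → c = c' := by
    intro c hc c' hc' h
    rw [List.getD_eq_getElem _ _ (hlen ▸ hc), List.getD_eq_getElem _ _ (hlen ▸ hc')] at h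
    exact (List.Nodup.getElem_inj_iff hnd).mp h
  have hfib : ∀ c < roots.length, {z | z ∈ Z ∧ inv z = V.getD c 0}
      = MulAction.orbit ↥(MulAction.stabilizer M24 X) (obj (roots.getD c n)) := by
    intro c hc
    ext z
    constructor
    · rintro ⟨hz, hi⟩
      obtain ⟨c', hc', hz'⟩ := (h2 z).mp hz
      have := hinvorb c' hc' z hz'
      rw [hi] at this
      rw [hVinj c hc c' hc' this]
      exact hz'
    · intro hz
      exact ⟨(h2 z).mpr ⟨c, hc, hz⟩, hinvorb c hc z hz⟩
  refine ⟨fun c hc => ?_, fun z hz => ?_, fun z hz z' hz' hzz' => ?_⟩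
  · rw [hfib c hc, h1 c hc, ← hN c hc, countB_eq]
    congr 1
    ext k
    simp only [Finset.mem_filter, Finset.mem_range]
    constructor
    · rintro ⟨hk, rfl⟩
      exact ⟨hk, Nat.beq_refl _⟩
    · rintro ⟨hk, hb⟩
      exact ⟨hk, Nat.eq_of_beq_eq_true hb⟩
  · obtain ⟨c, hc, hz'⟩ := (h2 z).mp hz
    exact ⟨c, hc, hinvorb c hc z hz'⟩
  · obtain ⟨c, hc, h3⟩ := (h2 z).mp hz
    obtain ⟨c', hc', h3'⟩ := (h2 z').mp hz'
    have e : c = c' := by
      apply hVinj c hc c' hc'
      rw [← hinvorb c hc z h3, ← hinvorb c' hc' z' h3', hzz']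
    subst e
    rw [mem_orbit_stab] at h3 h3'
    obtain ⟨g₁, hg₁, hX₁, rfl⟩ := h3
    obtain ⟨g₂, hg₂, hX₂, rfl⟩ := h3'
    refine ⟨g₂ * g₁⁻¹, mul_mem hg₂ (inv_mem hg₁), ?_, ?_⟩
    · rw [mul_smul, inv_smul_eq_iff.mpr hX₁.symm, hX₂]
    · rw [mul_smul, inv_smul_smul]

end

/-! ### the number of members of a family meeting a set -/

/-- the number of members of `S` that meet `Y` -/
def nu (Y : Finset GolayPt) (S : Finset (Finset GolayPt)) : ℕ :=
  (S.filter fun t => (t ∩ Y).Nonempty).card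

theorem nu_smul (g : Equiv.Perm GolayPt) (Y : Finset GolayPt) (S : Finset (Finset GolayPt)) :
    nu (g • Y) (g • S) = nu Y S := by
  unfold nu
  have h : (g • S).filter (fun t => (t ∩ g • Y).Nonempty)
      = (S.filter fun t => (t ∩ Y).Nonempty).image (fun t => g • t) := by
    ext t
    simp only [Finset.mem_filter, Finset.mem_image, Finset.mem_smul_finset]
    constructor
    · rintro ⟨⟨u, hu, rfl⟩, hne⟩
      refine ⟨u, ⟨hu, ?_⟩, rfl⟩
      rw [← Finset.smul_finset_inter] at hne
      exact Finset.smul_finset_nonempty.mp hne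
    · rintro ⟨u, ⟨hu, hne⟩, rfl⟩
      refine ⟨⟨u, hu, rfl⟩, ?_⟩
      rw [← Finset.smul_finset_inter]
      exact Finset.smul_finset_nonempty.mpr hne
  rw [h, Finset.card_image_of_injective _ (MulAction.injective g)]

/-- list version of `nu` on masks -/
def nuL (y : ℕ) (L : List ℕ) : ℕ :=
  (L.map (fun m => cond (Nat.beq (pcT (Nat.land m y)) 0) 0 1)).sum

theorem nu_objOf (y : ℕ) {L : List ℕ} (h : okList L) : nu (fs y) (objOf L) = nuL y L := by
  unfold nu nuL objOf
  rw [Finset.card_filter, List.sum_toFinset _ (nodup_map_fs h), List.map_map]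
  congr 1
  apply List.map_congr_left
  intro m _
  rw [Function.comp_apply]
  have hc : (fs m ∩ fs y).card = pcT (Nat.land m y) := card_inter_fs m y
  by_cases h0 : pcT (Nat.land m y) = 0
  · have hb : Nat.beq (pcT (Nat.land m y)) 0 = true := by rw [h0]; rfl
    rw [hb, cond_true, if_neg]
    rw [Finset.not_nonempty_iff_eq_empty, ← Finset.card_eq_zero, hc, h0]
  · have hb : Nat.beq (pcT (Nat.land m y)) 0 = false := by
      cases hb : Nat.beq (pcT (Nat.land m y)) 0
      · rfl
      · exact absurd (Nat.eq_of_beq_eq_true hb) h0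
    rw [hb, cond_false, if_pos]
    rw [← Finset.card_pos, hc]
    omega

end Cfsg.Agent.H94
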