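import Mathlib
import Cfsg.Agent.H96.RoDefs

/-!
# S2127 team project (helper96): basic consequences of a Ree datum (helper94)

`U`, `B = U H` as subgroups, `w ∉ B`, `N_G(U) = B`, and the fact that a Ree word commuting with
the whole torus is trivial.
-/

set_option autoImplicit false

namespace Cfsg.Agent.H94.Ro

open Cfsg.Agent.H96.Ro

universe u v

variable {K : Type u} [Field K] {G : Type v} [Group G] {n : ℕ} (D : Datum K G n)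

theorem R_zero : D.R 0 0 0 = 1 := by
  have h := D.R_mul 0 0 0 0 0 0
  have h2 : D.R 0 0 0 * D.R 0 0 0 = D.R 0 0 0 := by
    rw [h]
    congr 1 <;> simp
  exact mul_eq_left.1 h2

theorem h_one : D.h 1 = 1 := by
  have h := D.h_mul 1 1
  rw [mul_one] at h
  exact mul_eq_left.1 h.symm

theorem h_inv (κ : Kˣ) : D.h κ⁻¹ = (D.h κ)⁻¹ := by
  rw [eq_inv_iff_mul_eq_one, ← D.h_mul, inv_mul_cancel, h_one]

theorem h_comm (a b : Kˣ) : D.h a * D.h b = D.h b * D.h a := by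
  rw [← D.h_mul, ← D.h_mul, mul_comm]

/-- The Sylow 3-subgroup `U` of Ree words. -/
noncomputable def U : Subgroup G := (D.syl.choose : Subgroup G)

theorem mem_U (x : G) : x ∈ U D ↔ ∃ t u v : K, x = D.R t u v := D.syl.choose_spec x

theorem R_mem_U (t u v : K) : D.R t u v ∈ U D := (mem_U D _).2 ⟨t, u, v, rfl⟩

theorem conj_mem_U (κ : Kˣ) {p : G} (hp : p ∈ U D) : D.h κ * p * (D.h κ)⁻¹ ∈ U D := by
  obtain ⟨t, u, v, rfl⟩ := (mem_U D p).1 hp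
  rw [D.h_conj]
  exact R_mem_U D _ _ _

theorem conj_mem_U' (κ : Kˣ) {p : G} (hp : p ∈ U D) : (D.h κ)⁻¹ * p * D.h κ ∈ U D := by
  have := conj_mem_U D κ⁻¹ hp
  rwa [h_inv, inv_inv] at this

/-- The Borel subgroup `B = U H`. -/
noncomputable def B : Subgroup G where
  carrier := {x | ∃ p ∈ U D, ∃ κ : Kˣ, x = p * D.h κ}
  mul_mem' := by
    rintro x y ⟨p, hp, κ, rfl⟩ ⟨p', hp', κ', rfl⟩
    refine ⟨p * (D.h κ * p' * (D.h κ)⁻¹), mul_mem hp (conj_mem_U D κ hp'), κ * κ', ?_⟩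
    rw [D.h_mul]
    group
  one_mem' := ⟨1, one_mem _, 1, by rw [h_one, mul_one]⟩
  inv_mem' := by
    rintro x ⟨p, hp, κ, rfl⟩
    refine ⟨(D.h κ)⁻¹ * p⁻¹ * D.h κ, conj_mem_U' D κ (inv_mem hp), κ⁻¹, ?_⟩
    rw [h_inv]
    group

theorem mem_B (x : G) : x ∈ B D ↔ ∃ (t u v : K) (κ : Kˣ), x = D.R t u v * D.h κ := by
  constructor
  · rintro ⟨p, hp, κ, rfl⟩
    obtain ⟨t, u, v, rfl⟩ := (mem_U D p).1 hp
    exact ⟨t, u, v, κ, rfl⟩
  · rintro ⟨t, u, v, κ, rfl⟩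
    exact ⟨_, R_mem_U D t u v, κ, rfl⟩

theorem U_le_B : U D ≤ B D := fun p hp => ⟨p, hp, 1, by rw [h_one, mul_one]⟩

theorem h_mem_B (κ : Kˣ) : D.h κ ∈ B D := ⟨1, one_mem _, κ, by rw [one_mul]⟩

theorem R_mem_B (t u v : K) : D.R t u v ∈ B D := U_le_B D (R_mem_U D t u v)

/-- `U ∩ w B w⁻¹ H = 1`. -/
theorem BwB' {p : G} (hp : p ∈ U D) (κ : Kˣ) (h : D.w⁻¹ * (p * D.h κ) * D.w ∈ B D) : p = 1 := by
  obtain ⟨t, u, v, rfl⟩ := (mem_U D p).1 hp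
  obtain ⟨t', u', v', κ', h'⟩ := (mem_B D _).1 h
  obtain ⟨rfl, rfl, rfl⟩ := D.BwB t u v κ t' u' v' κ' h'
  exact R_zero D

theorem w_not_mem_B : D.w ∉ B D := by
  intro hw
  have h1 : D.w⁻¹ * (D.R 1 0 0 * D.h 1) * D.w ∈ B D :=
    mul_mem (mul_mem (inv_mem hw) (mul_mem (R_mem_B D 1 0 0) (h_mem_B D 1))) hw
  have h2 := BwB' D (R_mem_U D 1 0 0) 1 h1
  rw [← R_zero D] at h2
  exact one_ne_zero (D.R_inj _ _ _ _ _ _ h2).1

theorem B_le_normalizer : B D ≤ Subgroup.normalizer (U D : Set G) := by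
  rintro x ⟨p, hp, κ, rfl⟩
  refine mul_mem (Subgroup.le_normalizer hp) ?_
  rw [Subgroup.mem_normalizer_iff]
  intro y
  constructor
  · exact fun hy => conj_mem_U D κ hy
  · intro hy
    have := conj_mem_U' D κ hy
    convert this using 1
    group

theorem w_not_mem_normalizer : D.w ∉ Subgroup.normalizer (U D : Set G) := by
  intro hw
  have hw' := inv_mem hw
  rw [Subgroup.mem_normalizer_iff] at hw'
  have h1 := (hw' (D.R 1 0 0)).1 (R_mem_U D 1 0 0)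
  rw [inv_inv] at h1
  have h2 : D.w⁻¹ * (D.R 1 0 0 * D.h 1) * D.w ∈ B D := by
    rw [h_one, mul_one]
    exact U_le_B D h1
  have h4 := BwB' D (R_mem_U D 1 0 0) 1 h2
  rw [← R_zero D] at h4
  exact one_ne_zero (D.R_inj _ _ _ _ _ _ h4).1

/-- `N_G(U) ≤ B`. -/
theorem mem_B_of_normalizer {g : G} (hg : g ∈ Subgroup.normalizer (U D : Set G)) : g ∈ B D := by
  rcases D.bruhat g with ⟨t, u, v, κ, e⟩ | ⟨t, u, v, κ, t', u', v', e⟩
  · exact (mem_B D _).2 ⟨t, u, v, κ, e⟩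
  · exfalso
    apply w_not_mem_normalizer D
    have h1 : D.R t u v * D.h κ ∈ Subgroup.normalizer (U D : Set G) :=
      B_le_normalizer D ((mem_B D _).2 ⟨t, u, v, κ, rfl⟩)
    have h2 : D.R t' u' v' ∈ Subgroup.normalizer (U D : Set G) :=
      B_le_normalizer D (R_mem_B D _ _ _)
    have : D.w = (D.R t u v * D.h κ)⁻¹ * g * (D.R t' u' v')⁻¹ := by
      rw [e]
      group
    rw [this]
    exact mul_mem (mul_mem (inv_mem h1) hg) (inv_mem h2)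

/-- A Ree word commuting with the whole torus is trivial. -/
theorem comm_zero (hn : Odd n) (h3 : (3 : K) = 0) (r : K) (hr : r ≠ 0) (hr1 : r ^ (n + 1) ≠ 1)
    (a b c : K) (hc : ∀ κ : Kˣ, D.h κ * D.R a b c * (D.h κ)⁻¹ = D.R a b c) :
    a = 0 ∧ b = 0 ∧ c = 0 := by
  have h1 := hc (-1)
  rw [D.h_conj] at h1
  obtain ⟨e1, -, e3⟩ := D.R_inj _ _ _ _ _ _ h1
  have h2 := hc (Units.mk0 r hr)
  rw [D.h_conj] at h2
  obtain ⟨-, e2, -⟩ := D.R_inj _ _ _ _ _ _ h2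
  rw [Units.val_neg, Units.val_one] at e1 e3
  rw [Units.val_mk0] at e2
  have hodd : Odd (n + 2) := hn.add_even (by decide)
  rw [hodd.neg_one_pow] at e3
  refine ⟨?_, ?_, ?_⟩
  · linear_combination e1 + a * h3
  · have h4 : (r ^ (n + 1) - 1) * b = 0 := by linear_combination e2
    rcases mul_eq_zero.1 h4 with h | h
    · exact absurd (sub_eq_zero.1 h) hr1
    · exact h
  · linear_combination e3 + c * h3

/-- If `h κ₁ (p h κ w q) = (p h κ w q) h κ₁'` with `p ∈ U`, `q ∈ B`, then `h κ₁` centralises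
`p`. -/
theorem comm_of_eq {p q : G} (hpU : p ∈ U D) (hqB : q ∈ B D) (κ κ₁ κ₁' : Kˣ)
    (e3 : D.h κ₁ * (p * D.h κ * D.w * q) = p * D.h κ * D.w * q * D.h κ₁') :
    D.h κ₁ * p * (D.h κ₁)⁻¹ = p := by
  have hX : (D.h κ)⁻¹ * (p⁻¹ * (D.h κ₁ * p * (D.h κ₁)⁻¹)) * D.h κ ∈ U D :=
    conj_mem_U' D κ (mul_mem (inv_mem hpU) (conj_mem_U D κ₁ hpU))
  have c1 : (D.h κ₁)⁻¹ * D.h κ * D.h κ₁ = D.h κ := by
    rw [mul_assoc, h_comm D κ κ₁, ← mul_assoc, inv_mul_cancel, one_mul]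
  have hX2 : D.w⁻¹ * ((D.h κ)⁻¹ * (p⁻¹ * (D.h κ₁ * p * (D.h κ₁)⁻¹)) * D.h κ * D.h κ₁) * D.w
      ∈ B D := by
    have e4 : D.w⁻¹ * ((D.h κ)⁻¹ * (p⁻¹ * (D.h κ₁ * p * (D.h κ₁)⁻¹)) * D.h κ * D.h κ₁) * D.w
        = q * D.h κ₁' * q⁻¹ := by
      calc D.w⁻¹ * ((D.h κ)⁻¹ * (p⁻¹ * (D.h κ₁ * p * (D.h κ₁)⁻¹)) * D.h κ * D.h κ₁) * D.w
          = D.w⁻¹ * (D.h κ)⁻¹ * p⁻¹ * (D.h κ₁ * p) * ((D.h κ₁)⁻¹ * D.h κ * D.h κ₁) * D.w := by
            group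
        _ = D.w⁻¹ * (D.h κ)⁻¹ * p⁻¹ * (D.h κ₁ * (p * D.h κ * D.w * q)) * q⁻¹ := by
            rw [c1]
            group
        _ = q * D.h κ₁' * q⁻¹ := by
            rw [e3]
            group
    rw [e4]
    exact mul_mem (mul_mem hqB (h_mem_B D _)) (inv_mem hqB)
  have hX3 := BwB' D hX κ₁ hX2
  have hX4 : p⁻¹ * (D.h κ₁ * p * (D.h κ₁)⁻¹) = 1 := by
    calc p⁻¹ * (D.h κ₁ * p * (D.h κ₁)⁻¹)
        = D.h κ * ((D.h κ)⁻¹ * (p⁻¹ * (D.h κ₁ * p * (D.h κ₁)⁻¹)) * D.h κ) * (D.h κ)⁻¹ := by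
          group
      _ = 1 := by
          rw [hX3]
          group
  exact (inv_mul_eq_one.1 hX4).symm

end Cfsg.Agent.H94.Ro
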