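import Mathlib
import Cfsg.Agent.H96.RoDefs
import Cfsg.Agent.H94.RoBase

/-!
# S2127 team project (helper96): RO-INNER (helper94)

A field automorphism which is induced by conjugation is trivial.
-/

set_option autoImplicit false

namespace Cfsg.Agent.H94.Ro

open Cfsg.Agent.H96.Ro

universe u v

theorem inner (ha : StArith.{u}) : StInner.{u, v} := by
  intro K _ _ _ m hm hK G _ D σ g hR hh x
  obtain ⟨-, -, -, -, h5, ⟨r, hr, hr2⟩, -⟩ := ha K m hm hK
  have h3 : (3 : K) = 0 := by exact_mod_cast CharP.cast_eq_zero K 3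
  have hn : Odd (3 ^ (m + 1)) := Odd.pow (by decide)
  have hr1 : r ^ (3 ^ (m + 1) + 1) ≠ 1 := fun h => hr2 (h5 r hr h)
  -- `g` normalises `U`
  have hgN : g ∈ Subgroup.normalizer (U D : Set G) := by
    rw [Subgroup.mem_normalizer_iff]
    intro p
    constructor
    · intro hp
      obtain ⟨t, u, v, rfl⟩ := (mem_U D p).1 hp
      rw [hR]
      exact R_mem_U D _ _ _
    · intro hp
      obtain ⟨t, u, v, e⟩ := (mem_U D _).1 hp
      have h1 := hR (σ.symm t) (σ.symm u) (σ.symm v)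
      simp only [RingEquiv.apply_symm_apply] at h1
      rw [← e] at h1
      have h2 : D.R (σ.symm t) (σ.symm u) (σ.symm v) = p :=
        mul_left_cancel (mul_right_cancel h1)
      rw [← h2]
      exact R_mem_U D _ _ _
  obtain ⟨a, b, c, κ₀, rfl⟩ := (mem_B D g).1 (mem_B_of_normalizer D hgN)
  have hcomm : ∀ κ : Kˣ, D.h κ * D.R a b c * (D.h κ)⁻¹ = D.R a b c := by
    intro κ
    obtain ⟨κ', e⟩ := hh κ
    have c1 : D.h κ₀ * D.h κ * (D.h κ₀)⁻¹ = D.h κ := by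
      rw [h_comm D κ₀ κ, mul_assoc, mul_inv_cancel, mul_one]
    have e1 : D.R a b c * (D.h κ * (D.R a b c)⁻¹ * (D.h κ)⁻¹) = D.h (κ' * κ⁻¹) := by
      rw [D.h_mul, ← e, h_inv]
      calc D.R a b c * (D.h κ * (D.R a b c)⁻¹ * (D.h κ)⁻¹)
          = D.R a b c * (D.h κ₀ * D.h κ * (D.h κ₀)⁻¹) * (D.R a b c)⁻¹ * (D.h κ)⁻¹ := by
            rw [c1]
            group
        _ = D.R a b c * D.h κ₀ * D.h κ * (D.R a b c * D.h κ₀)⁻¹ * (D.h κ)⁻¹ := by
            group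
    have hU : D.R a b c * (D.h κ * (D.R a b c)⁻¹ * (D.h κ)⁻¹) ∈ U D :=
      mul_mem (R_mem_U D _ _ _) (conj_mem_U D κ (inv_mem (R_mem_U D _ _ _)))
    obtain ⟨t, u, v, e2⟩ := (mem_U D _).1 hU
    have e3 := D.UH t u v (κ' * κ⁻¹) (by rw [← e2, e1])
    rw [e3, h_one] at e1
    have e4 : D.h κ * (D.R a b c)⁻¹ * (D.h κ)⁻¹ = (D.R a b c)⁻¹ :=
      eq_inv_of_mul_eq_one_right e1
    calc D.h κ * D.R a b c * (D.h κ)⁻¹ = (D.h κ * (D.R a b c)⁻¹ * (D.h κ)⁻¹)⁻¹ := by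
          group
      _ = D.R a b c := by rw [e4, inv_inv]
  obtain ⟨rfl, rfl, rfl⟩ := comm_zero D hn h3 r hr hr1 a b c hcomm
  have key : ∀ t : K, (κ₀ : K) * t = σ t := by
    intro t
    have h1 := hR t 0 0
    rw [R_zero D, one_mul, D.h_conj] at h1
    exact (D.R_inj _ _ _ _ _ _ h1).1
  have hk : (κ₀ : K) = 1 := by
    have h1 := key 1
    rwa [mul_one, map_one] at h1
  rw [← key x, hk, one_mul]

example (ha : Cfsg.Agent.H96.Ro.StArith.{u}) : Cfsg.Agent.H96.Ro.StInner.{u, v} := inner ha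

end Cfsg.Agent.H94.Ro
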