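import Mathlib
import Cfsg.Agent.H96.RoDefs
import Cfsg.Agent.H94.RoBase

/-!
# S2127 team project (helper96): RO-RIGID (helper94)

An automorphism fixing `U` and `H` pointwise is the identity.
-/

set_option autoImplicit false

namespace Cfsg.Agent.H94.Ro

open Cfsg.Agent.H96.Ro

universe u v

theorem rigid (ha : StArith.{u}) : StRigid.{u, v} := by
  intro K _ _ _ m hm hK G _ D β hR hh x
  obtain ⟨-, -, -, -, h5, ⟨r, hr, hr2⟩, -⟩ := ha K m hm hK
  have h3 : (3 : K) = 0 := by exact_mod_cast CharP.cast_eq_zero K 3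
  have hn : Odd (3 ^ (m + 1)) := Odd.pow (by decide)
  have hr1 : r ^ (3 ^ (m + 1) + 1) ≠ 1 := fun h => hr2 (h5 r hr h)
  -- β fixes B pointwise
  have hB : ∀ y ∈ B D, β y = y := by
    intro y hy
    obtain ⟨t, u, v, κ, rfl⟩ := (mem_B D y).1 hy
    rw [map_mul, hR, hh]
  have hw : β D.w ∉ B D := by
    intro h
    have h1 := hB _ h
    have h2 : β D.w = D.w := β.injective h1
    rw [h2] at h
    exact w_not_mem_B D h
  rcases D.bruhat (β D.w) with ⟨t, u, v, κ, e⟩ | ⟨a, b, c, κ, t', u', v', e⟩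
  · exact absurd ((mem_B D _).2 ⟨t, u, v, κ, e⟩) hw
  -- `R a b c` commutes with `H`
  have hcomm : ∀ κ₁ : Kˣ, D.h κ₁ * D.R a b c * (D.h κ₁)⁻¹ = D.R a b c := by
    intro κ₁
    obtain ⟨κ₁', e1⟩ := D.wH κ₁
    have e2 : D.h κ₁ * D.w = D.w * D.h κ₁' := by
      rw [← e1]
      group
    have e3 : D.h κ₁ * β D.w = β D.w * D.h κ₁' := by
      have h1 := congrArg β e2
      rwa [map_mul, map_mul, hh, hh] at h1
    rw [e] at e3
    exact comm_of_eq D (R_mem_U D _ _ _) (R_mem_B D _ _ _) κ κ₁ κ₁' e3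
  obtain ⟨rfl, rfl, rfl⟩ := comm_zero D hn h3 r hr hr1 a b c hcomm
  rw [R_zero D, one_mul] at e
  obtain ⟨κ', ek⟩ := D.wH κ
  have hwB : D.w⁻¹ * β D.w ∈ B D := by
    rw [e]
    have h1 : D.w⁻¹ * (D.h κ * D.w * D.R t' u' v') = D.h κ' * D.R t' u' v' := by
      rw [← ek]
      group
    rw [h1]
    exact mul_mem (h_mem_B D _) (R_mem_B D _ _ _)
  have hall : ∀ y : G, y⁻¹ * β y ∈ B D := by
    intro y
    rcases D.bruhat y with ⟨t, u, v, κ₂, e'⟩ | ⟨t, u, v, κ₂, t₂, u₂, v₂, e'⟩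
    · have hy : y ∈ B D := (mem_B D _).2 ⟨t, u, v, κ₂, e'⟩
      rw [hB y hy, inv_mul_cancel]
      exact one_mem _
    · have h1 : y⁻¹ * β y = (D.R t₂ u₂ v₂)⁻¹ * (D.w⁻¹ * β D.w) * D.R t₂ u₂ v₂ := by
        rw [e']
        simp only [map_mul, hR, hh]
        group
      rw [h1]
      exact mul_mem (mul_mem (inv_mem (R_mem_B D _ _ _)) hwB) (R_mem_B D _ _ _)
  have hcore : x⁻¹ * β x = 1 := by
    apply D.core
    intro y
    have h1 := hall (x * y)
    have h2 := hall y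
    have h4 : y⁻¹ * (x⁻¹ * β x) * y = ((x * y)⁻¹ * β (x * y)) * (y⁻¹ * β y)⁻¹ := by
      rw [map_mul]
      group
    rw [h4]
    exact (mem_B D _).1 (mul_mem h1 (inv_mem h2))
  exact (inv_mul_eq_one.1 hcore).symm

example (ha : Cfsg.Agent.H96.Ro.StArith.{u}) : Cfsg.Agent.H96.Ro.StRigid.{u, v} := rigid ha

end Cfsg.Agent.H94.Ro
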