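import Cfsg.Agent.H51.SyDefs
import Cfsg.Agent.S0617
import Cfsg.Agent.H14.TFail
import Cfsg.Agent.H84.SpGLPA

set_option autoImplicit false
set_option linter.unusedVariables false
set_option linter.style.haveILetI false

/-! SY-GENS (helper94, for helper51's S2949 project): consequence of Glauberman's structure
theorem S0617 in the holomorph of `V`: every element of odd order of `J(X)` lies in the subgroup
generated by the component elements and `C_X(V)`.  The set-up (`psi`, `Vh`, `hS1`, `hS3`) is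
copied from helper14's `H14/SnGL.lean` / `H14/SxStruct.lean`; the odd elements lie in the
subgroup generated by the squares of the factors by helper84's `glpa_odd_mem`. -/

open Cfsg
open scoped commutatorElement Pointwise

namespace Cfsg.Agent.H94.Sy

open Cfsg.Agent.H14.Holo

universe u

theorem sl22_sq : ∀ A B : Matrix.SpecialLinearGroup (Fin 2) (ZMod 2),
    (A * A) ^ 3 = 1 ∧ (A * A ≠ 1 → B * B ≠ 1 → (B * B = A * A ∨ B * B = (A * A)⁻¹)) := by
  decide

/-- The same facts in any group isomorphic to `SL(2,2)`. -/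
theorem s3_sq {E : Type*} [Group E]
    (φ : E ≃* Matrix.SpecialLinearGroup (Fin 2) (ZMod 2)) (a b : E) :
    (a * a) ^ 3 = 1 ∧ (a * a ≠ 1 → b * b ≠ 1 → (b * b = a * a ∨ b * b = (a * a)⁻¹)) := by
  obtain ⟨h1, h2⟩ := sl22_sq (φ a) (φ b)
  refine ⟨?_, ?_⟩
  · apply φ.injective
    rw [map_pow, map_mul, h1, map_one]
  · intro ha hb
    have ha' : φ a * φ a ≠ 1 := by
      intro h
      apply ha
      apply φ.injective
      rw [map_mul, h, map_one]
    have hb' : φ b * φ b ≠ 1 := by
      intro h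
      apply hb
      apply φ.injective
      rw [map_mul, h, map_one]
    rcases h2 ha' hb' with h | h
    · left
      apply φ.injective
      rw [map_mul, map_mul, h]
    · right
      apply φ.injective
      rw [map_mul, map_inv, map_mul, h]

/-- The holomorph-level statement. -/
theorem genS_core {Y : Type u} [Group Y] [Finite Y] (V H : Subgroup Y)
    (hV : IsElementaryAbelian 2 V) (hHV : H ≤ Subgroup.normalizer (V : Set Y))
    (hf : H ⊓ Subgroup.centralizer (V : Set Y) = ⊥)
    (hS1 : Subgroup.centralizer (pPrimeCore 2 ↥H : Set ↥H) ≤ pPrimeCore 2 ↥H)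
    (hS3 : H = ⨆ A : {A : Subgroup Y // A ≤ H ∧ IsBestOffenderOn 2 V A}, (A : Subgroup Y))
    (hH1 : H ≠ ⊥) :
    ∀ z ∈ H, Odd (orderOf z) → z ∈ Subgroup.closure {s : Y | s ∈ H ∧ s ≠ 1 ∧ s ^ 3 = 1 ∧
      (∀ g ∈ H, g * s * g⁻¹ = s ∨ g * s * g⁻¹ = s⁻¹) ∧
      ∃ W : Subgroup Y, W ≤ V ∧ Nat.card ↥W = 4 ∧ ∀ v ∈ V, s * v * s⁻¹ * v⁻¹ ∈ W} := by
  haveI : Fact (Nat.Prime 2) := ⟨Nat.prime_two⟩
  obtain ⟨-, hE, hind, hsup, -, -⟩ := Cfsg.Agent.S0617.result V H hV hHV hf hS1 hS3 hH1
  intro z hz hodd
  have h1 := Cfsg.Agent.H84.Sn.glpa_odd_mem _ H (fun i => (hE i).1) hind hsup z hz hodd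
  refine (Subgroup.closure_le _).mpr ?_ h1
  rintro s ⟨i, e, he, rfl⟩
  by_cases hs1 : e * e = 1
  · rw [hs1]
    exact Subgroup.one_mem _
  · apply Subgroup.subset_closure
    obtain ⟨hEnorm, ⟨φ⟩, hEcard⟩ := hE i
    have hEH : (i : Subgroup Y) ≤ H :=
      (le_iSup (fun E : {E : Subgroup Y // ∃ A : Subgroup Y, A ≤ H ∧
        IsBestOffenderOn 2 V A ∧ ⁅V, A⁆ ≠ ⊥ ∧
        (∀ B : Subgroup Y, B ≤ A → IsBestOffenderOn 2 V B → ⁅V, B⁆ ≠ ⊥ → B = A) ∧
        E = ⁅((pPrimeCore 2 ↥H).map H.subtype), A⁆ ⊔ A} => (E : Subgroup Y)) i).trans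
        (le_of_eq hsup)
    have heH : e ∈ H := hEH he
    have hconj : ∀ g ∈ H, g * e * g⁻¹ ∈ (i : Subgroup Y) := by
      intro g hg
      exact (Subgroup.mem_normalizer_iff.mp (hEnorm hg) e).mp he
    refine ⟨H.mul_mem heH heH, hs1, ?_, ?_, ?_⟩
    · have h3 := (s3_sq φ (⟨e, he⟩ : ↥(i : Subgroup Y)) ⟨e, he⟩).1
      have := congrArg Subtype.val h3
      simpa using this
    · intro g hg
      have hne : (⟨e, he⟩ : ↥(i : Subgroup Y)) * ⟨e, he⟩ ≠ 1 := by
        intro h
        apply hs1
        have := congrArg Subtype.val h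
        simpa using this
      have hne' : (⟨g * e * g⁻¹, hconj g hg⟩ : ↥(i : Subgroup Y)) * ⟨g * e * g⁻¹, hconj g hg⟩
          ≠ 1 := by
        intro h
        apply hs1
        have h' : (g * e * g⁻¹) * (g * e * g⁻¹) = 1 := by
          have := congrArg Subtype.val h
          simpa using this
        have e1 : e * e = g⁻¹ * ((g * e * g⁻¹) * (g * e * g⁻¹)) * g := by group
        rw [e1, h']
        group
      have e2 : g * (e * e) * g⁻¹ = (g * e * g⁻¹) * (g * e * g⁻¹) := by group
      rcases (s3_sq φ (⟨e, he⟩ : ↥(i : Subgroup Y)) ⟨g * e * g⁻¹, hconj g hg⟩).2 hne hne'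
        with h | h
      · left
        rw [e2]
        have := congrArg Subtype.val h
        simpa using this
      · right
        rw [e2]
        have := congrArg Subtype.val h
        simpa using this
    · refine ⟨⁅V, (i : Subgroup Y)⁆, ?_, ?_, ?_⟩
      · rw [Subgroup.commutator_le]
        intro v hv g hg
        have hgn := hHV (hEH hg)
        rw [Subgroup.mem_normalizer_iff] at hgn
        have h1 : g * v⁻¹ * g⁻¹ ∈ V := (hgn v⁻¹).mp (V.inv_mem hv)
        have : ⁅v, g⁆ = v * (g * v⁻¹ * g⁻¹) := by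
          rw [commutatorElement_def]
          group
        rw [this]
        exact V.mul_mem hv h1
      · exact hEcard.trans (by norm_num)
      · intro v hv
        have h1 : ⁅e * e, v⁆ ∈ ⁅(i : Subgroup Y), V⁆ :=
          Subgroup.commutator_mem_commutator ((i : Subgroup Y).mul_mem he he) hv
        rw [Subgroup.commutator_comm] at h1
        rw [commutatorElement_def] at h1
        exact h1

theorem genS : Cfsg.Agent.H51.Sy.StGenS.{u} := by
  intro X _ _ V _ hV hsep hO y hy hodd
  haveI : Fact (Nat.Prime 2) := ⟨Nat.prime_two⟩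
  haveI hJn := thompsonSubgroup_normal 2 X
  have hV' := Vh_elemAb V hV
  have hHV : (thompsonSubgroup 2 X).map (psi V) ≤
      Subgroup.normalizer ((Vh V : Subgroup (Hol V)) : Set (Hol V)) := by
    haveI := Vh_normal V
    rw [Subgroup.normalizer_eq_top]
    exact le_top
  have hHR : (thompsonSubgroup 2 X).map (psi V) ≤ (psi V).range := by
    rintro _ ⟨j, -, rfl⟩
    exact ⟨j, rfl⟩
  have hf : (thompsonSubgroup 2 X).map (psi V) ⊓
      Subgroup.centralizer ((Vh V : Subgroup (Hol V)) : Set (Hol V)) = ⊥ := by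
    rw [eq_bot_iff, ← range_faithful V]
    exact inf_le_inf_right _ hHR
  have hnorm : (psi V).range ≤
      Subgroup.normalizer (((thompsonSubgroup 2 X).map (psi V) : Subgroup (Hol V)) :
        Set (Hol V)) := by
    rintro _ ⟨g, rfl⟩
    rw [Subgroup.mem_normalizer_iff]
    intro h
    constructor
    · rintro ⟨j, hj, rfl⟩
      refine ⟨g * j * g⁻¹, hJn.conj_mem j hj g, ?_⟩
      simp
    · rintro ⟨j, hj, hjh⟩
      refine ⟨g⁻¹ * j * g, ?_, ?_⟩
      · have := hJn.conj_mem j hj g⁻¹
        simpa using this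
      · rw [map_mul, map_mul, hjh, map_inv]
        group
  have hS1 := hS1_of_normal (p := 2) (psi V).range ((thompsonSubgroup 2 X).map (psi V)) hHR
    hnorm (range_isPSolvable V hsep) (range_pCore_eq_bot V hO)
  have hS3 : (thompsonSubgroup 2 X).map (psi V) = ⨆ A : {A : Subgroup (Hol V) //
      A ≤ (thompsonSubgroup 2 X).map (psi V) ∧ IsBestOffenderOn 2 (Vh V) A},
      (A : Subgroup (Hol V)) := by
    apply le_antisymm
    · conv_lhs => unfold Cfsg.thompsonSubgroup
      rw [Subgroup.map_le_iff_le_comap]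
      apply sSup_le
      intro A hA
      rw [← Subgroup.map_le_iff_le_comap]
      exact le_iSup (fun A : {A : Subgroup (Hol V) //
        A ≤ (thompsonSubgroup 2 X).map (psi V) ∧ IsBestOffenderOn 2 (Vh V) A} =>
          (A : Subgroup (Hol V)))
        ⟨A.map (psi V), Subgroup.map_mono (le_sSup hA), bestOffender_map V hV hA⟩
    · exact iSup_le fun A => A.2.1
  have hyH : psi V y ∈ (thompsonSubgroup 2 X).map (psi V) := Subgroup.mem_map_of_mem _ hy
  by_cases hH1 : (thompsonSubgroup 2 X).map (psi V) = ⊥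
  · rw [hH1, Subgroup.mem_bot] at hyH
    have hyC : y ∈ Subgroup.centralizer (V : Set X) := by
      rw [← psi_ker, MonoidHom.mem_ker]
      exact hyH
    exact (le_sup_right : Subgroup.centralizer (V : Set X) ≤ _) hyC
  · have hcore := genS_core (Vh V) _ hV' hHV hf hS1 hS3 hH1 (psi V y) hyH
      (Odd.of_dvd_nat hodd (orderOf_map_dvd (psi V) y))
    have hle : Subgroup.closure {s : Hol V | s ∈ (thompsonSubgroup 2 X).map (psi V) ∧ s ≠ 1 ∧
        s ^ 3 = 1 ∧
        (∀ g ∈ (thompsonSubgroup 2 X).map (psi V), g * s * g⁻¹ = s ∨ g * s * g⁻¹ = s⁻¹) ∧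
        ∃ W : Subgroup (Hol V), W ≤ Vh V ∧ Nat.card ↥W = 4 ∧
          ∀ v ∈ Vh V, s * v * s⁻¹ * v⁻¹ ∈ W} ≤
        (Subgroup.closure {k : X | Cfsg.Agent.H51.Sy.IsCompElt V k}).map (psi V) := by
      rw [Subgroup.closure_le]
      rintro s ⟨hsH, hy1, hy3, hgy, W, hWV, hW4, hWy⟩
      obtain ⟨k, hk, rfl⟩ := hsH
      refine Subgroup.mem_map_of_mem _ (Subgroup.subset_closure ?_)
      refine ⟨hk, ?_, ?_, ?_, ?_⟩
      · intro hkC
        apply hy1
        rw [← psi_ker, MonoidHom.mem_ker] at hkC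
        exact hkC
      · rw [← psi_ker, MonoidHom.mem_ker, map_pow]
        exact hy3
      · intro g hg
        rcases hgy (psi V g) (Subgroup.mem_map_of_mem _ hg) with h | h
        · left
          rw [← psi_ker, MonoidHom.mem_ker, map_mul, map_mul, map_mul, map_inv, map_inv, h]
          group
        · right
          rw [← psi_ker, MonoidHom.mem_ker, map_mul, map_mul, map_mul, map_inv, h]
          group
      · refine ⟨(W.comap (SemidirectProduct.inl : ↥V →* Hol V)).map V.subtype, ?_, ?_⟩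
        · have e1 : Nat.card ↥((W.comap (SemidirectProduct.inl : ↥V →* Hol V)).map V.subtype) =
              Nat.card ↥(W.comap (SemidirectProduct.inl : ↥V →* Hol V)) :=
            Nat.card_congr ((W.comap (SemidirectProduct.inl : ↥V →* Hol V)).equivMapOfInjective _
              V.subtype_injective).symm.toEquiv
          have e2 : Nat.card ↥(W.comap (SemidirectProduct.inl : ↥V →* Hol V)) = Nat.card ↥W := by
            apply Nat.card_congr
            refine Equiv.ofBijective
              (fun v : ↥(W.comap (SemidirectProduct.inl : ↥V →* Hol V)) =>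
                (⟨SemidirectProduct.inl (v : ↥V), Subgroup.mem_comap.mp v.2⟩ : ↥W)) ⟨?_, ?_⟩
            · intro v1 v2 h12
              have h3 : (SemidirectProduct.inl (v1 : ↥V) : Hol V) =
                  SemidirectProduct.inl (v2 : ↥V) := congrArg Subtype.val h12
              exact Subtype.ext (SemidirectProduct.inl_injective h3)
            · intro w
              obtain ⟨v, hv⟩ := hWV w.2
              refine ⟨⟨v, ?_⟩, ?_⟩
              · rw [Subgroup.mem_comap, hv]
                exact w.2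
              · exact Subtype.ext hv
          rw [e1, e2, hW4]
        · intro v hv
          have h1 := hWy (SemidirectProduct.inl (⟨v, hv⟩ : ↥V)) ⟨_, rfl⟩
          rw [psi_conj, ← map_inv, ← map_mul] at h1
          refine ⟨MulAut.conjNormal k (⟨v, hv⟩ : ↥V) * (⟨v, hv⟩ : ↥V)⁻¹, ?_, ?_⟩
          · exact h1
          · rw [Subgroup.coe_subtype, Subgroup.coe_mul, MulAut.conjNormal_apply,
              Subgroup.coe_inv]
    obtain ⟨z, hz, hzy⟩ := hle hcore
    have hker : z⁻¹ * y ∈ Subgroup.centralizer (V : Set X) := by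
      rw [← psi_ker, MonoidHom.mem_ker, map_mul, map_inv, hzy]
      group
    have e : y = z * (z⁻¹ * y) := by group
    rw [e]
    exact Subgroup.mul_mem_sup hz hker

example : ∀ {X : Type u} [Group X] [Finite X] (V : Subgroup X) [V.Normal],
  IsElementaryAbelian 2 V → IsPSolvable 2 X →
  pCore 2 (X ⧸ Subgroup.centralizer (V : Set X)) = ⊥ →
  ∀ y ∈ thompsonSubgroup 2 X, Odd (orderOf y) →
    y ∈ Subgroup.closure {k : X | Cfsg.Agent.H51.Sy.IsCompElt V k} ⊔
      Subgroup.centralizer (V : Set X) := genS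

end Cfsg.Agent.H94.Sy

#print axioms Cfsg.Agent.H94.Sy.genS
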